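import Mathlib
import Cfsg.Prelude.Def_GeometricClasses
import Cfsg.Agent.Lib.Helper77.Asch.Defs

/-! Ladder ASCHU: Aschbacher's theorem for SU_n(q), n an odd prime (definitions). -/

set_option autoImplicit false

namespace Cfsg.Agent.Lib.Helper32.AschU

open Cfsg Cfsg.Geo Cfsg.Agent.Lib.Helper77.Asch
open scoped MatrixGroups

variable {n : ℕ} {F : Type*} [Field F]

/-- `SU_n(q)` inside `GL_n(F)`. -/
abbrev SUg (n : ℕ) (F : Type*) [Field F] (q : ℕ) : Subgroup (GL (Fin n) F) :=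
  GU n F q ⊓ specialLinear (Fin n) F

/-- `τ` is a transvection: `τ v = v + φ v • u`, `φ u = 0`, `τ ≠ 1`. -/
def IsTv (τ : GL (Fin n) F) : Prop :=
  τ ≠ 1 ∧ ∃ (u : Fin n → F) (φ : (Fin n → F) →ₗ[F] F), φ u = 0 ∧
    ∀ v, (τ : Matrix (Fin n) (Fin n) F).mulVec v = v + φ v • u

/-- Gram matrix of `hermForm n F q` in the basis given by the columns of `C`: `Cᵀ * C^(q)`. -/
def gram (q : ℕ) (C : GL (Fin n) F) : Matrix (Fin n) (Fin n) F :=
  (C : Matrix (Fin n) (Fin n) F).transpose * (C : Matrix (Fin n) (Fin n) F).map (· ^ q)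

/-- `H` lies in a member of one of the unitary geometric classes relevant in prime dimension. -/
def InGeoU [Fintype F] (q : ℕ) (H : Subgroup (GL (Fin n) F)) : Prop :=
  (∃ W : Submodule F (Fin n → F), W ≠ ⊥ ∧ IsTotallySingularFor (hermForm n F q) W ∧
      H ≤ subspaceStabilizer W) ∨
  (∃ W : Submodule F (Fin n → F), W ≠ ⊥ ∧ IsNondegenerateOn (hermForm n F q) W ∧
      2 * Module.finrank F W < n ∧ H ≤ subspaceStabilizer W) ∨
  (∃ D : Fin n → Submodule F (Fin n → F), IsNondegenerateMDecomposition (hermForm n F q) 1 D ∧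
      H ≤ decompositionStabilizer D) ∨
  (∃ K : Subalgebra F (Matrix (Fin n) (Fin n) F), IsFieldSubalgebra n K ∧
      IsAdjointClosedFor (hermForm n F q) K ∧ H ≤ subalgebraNormalizer K) ∨
  (∃ (F₀ : Subfield F) (r : ℕ) (P : GL (Fin n) F), r.Prime ∧ Odd r ∧ Fintype.card F = Nat.card F₀ ^ r ∧
      IsFormRationalStructure (hermForm n F q) F₀ 1 P ∧ H ≤ subfieldSubgroup F₀ P) ∨
  (Odd q ∧ ∃ (F₀ : Subfield F) (P : GL (Fin n) F), Fintype.card F = Nat.card F₀ ^ 2 ∧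
      IsFormRationalStructure (hermForm n F q) F₀ 1 P ∧ H ≤ subfieldSubgroup F₀ P) ∨
  (∃ (R : Subgroup (GL (Fin n) F)) (x y : GL (Fin n) F) (w : Fˣ), Heis R x y w ∧
      ActsAbsolutelyIrreducibly (matrixSet R) ∧ R ≤ GU n F q ∧
      (∀ F₀ : Subfield F, (w : F) ∈ F₀ → F₀ = ⊤) ∧ (w : F) ^ (q + 1) = 1 ∧ H ≤ subgroupNormalizer R)

end Cfsg.Agent.Lib.Helper32.AschU
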