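import Cfsg.Agent.Lib.Helper32.AschU.Defs
import Cfsg.Agent.Lib.Helper17.Herm

set_option autoImplicit false

namespace Cfsg.Agent.Lib.Helper32.AschU

open Cfsg Cfsg.Geo Cfsg.Agent.Lib.Helper77.Asch
open scoped MatrixGroups Matrix

variable {n : ℕ} {F : Type*} [Field F]

/-- the adjoint matrix -/
def adjStar (q : ℕ) (k : Matrix (Fin n) (Fin n) F) : Matrix (Fin n) (Fin n) F := (k.map (· ^ q))ᵀ

theorem adj_star [Fintype F] (q : ℕ) (hF : Fintype.card F = q ^ 2) (k : Matrix (Fin n) (Fin n) F)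
    (u v : Fin n → F) : hermForm n F q (k *ᵥ u) v = hermForm n F q u (adjStar q k *ᵥ v) := by
  simp only [hermForm, Matrix.mulVec, dotProduct, adjStar, Matrix.transpose_apply, Matrix.map_apply]
  have h1 : ∀ j : Fin n, (∑ i, k i j ^ q * v i) ^ q = ∑ i, k i j * v i ^ q := by
    intro j
    rw [Cfsg.Agent.Lib.Helper17.sum_pow_q hF]
    refine Finset.sum_congr rfl fun i _ => ?_
    rw [mul_pow, Cfsg.Agent.Lib.Helper17.pow_q_pow_q hF]
  simp only [h1, Finset.sum_mul, Finset.mul_sum]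
  rw [Finset.sum_comm]
  refine Finset.sum_congr rfl fun j _ => Finset.sum_congr rfl fun i _ => ?_
  ring

theorem adj_right_zero [Fintype F] (q : ℕ) (hF : Fintype.card F = q ^ 2) (x : Fin n → F)
    (hx : ∀ y, hermForm n F q y x = 0) : x = 0 := by
  have hq := Cfsg.Agent.Lib.Helper17.two_le_of_card_sq hF
  funext i
  have h := hx (Pi.single i 1)
  rw [Cfsg.Agent.Lib.Helper17.hermForm_single_left] at h
  exact pow_eq_zero_iff (by omega) |>.1 h

/-- ADJ. -/
theorem adj [Fintype F] (q : ℕ) (hF : Fintype.card F = q ^ 2) (N : Subgroup (GL (Fin n) F))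
    (hN : N ≤ similarityGroup (hermForm n F q)) :
    IsAdjointClosedFor (hermForm n F q) (Subalgebra.centralizer F (matrixSet N)) := by
  intro k hk
  refine ⟨adjStar q k, ?_, adj_star q hF k⟩
  rw [Subalgebra.mem_centralizer_iff] at hk ⊢
  rintro _ ⟨x, hx, rfl⟩
  obtain ⟨c, hc⟩ := hN hx
  have hkx : (x : Matrix (Fin n) (Fin n) F) * k = k * (x : Matrix (Fin n) (Fin n) F) := hk _ ⟨x, hx, rfl⟩
  have key : ∀ u' v : Fin n → F,
      hermForm n F q ((x : Matrix (Fin n) (Fin n) F) *ᵥ u')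
        (((x : Matrix (Fin n) (Fin n) F) * adjStar q k) *ᵥ v) =
      hermForm n F q ((x : Matrix (Fin n) (Fin n) F) *ᵥ u')
        ((adjStar q k * (x : Matrix (Fin n) (Fin n) F)) *ᵥ v) := by
    intro u' v
    calc hermForm n F q ((x : Matrix (Fin n) (Fin n) F) *ᵥ u')
          (((x : Matrix (Fin n) (Fin n) F) * adjStar q k) *ᵥ v)
        = hermForm n F q ((x : Matrix (Fin n) (Fin n) F) *ᵥ u')
          ((x : Matrix (Fin n) (Fin n) F) *ᵥ (adjStar q k *ᵥ v)) := by rw [Matrix.mulVec_mulVec]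
      _ = (c : F) * hermForm n F q u' (adjStar q k *ᵥ v) := hc _ _
      _ = (c : F) * hermForm n F q (k *ᵥ u') v := by rw [adj_star q hF]
      _ = hermForm n F q ((x : Matrix (Fin n) (Fin n) F) *ᵥ (k *ᵥ u'))
          ((x : Matrix (Fin n) (Fin n) F) *ᵥ v) := (hc _ _).symm
      _ = hermForm n F q (k *ᵥ ((x : Matrix (Fin n) (Fin n) F) *ᵥ u'))
          ((x : Matrix (Fin n) (Fin n) F) *ᵥ v) := by
            rw [Matrix.mulVec_mulVec, Matrix.mulVec_mulVec, hkx]
      _ = hermForm n F q ((x : Matrix (Fin n) (Fin n) F) *ᵥ u')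
          (adjStar q k *ᵥ ((x : Matrix (Fin n) (Fin n) F) *ᵥ v)) := adj_star q hF _ _ _
      _ = _ := by rw [Matrix.mulVec_mulVec]
  show (x : Matrix (Fin n) (Fin n) F) * adjStar q k = adjStar q k * (x : Matrix (Fin n) (Fin n) F)
  apply Matrix.toLin'.injective
  apply LinearMap.ext
  intro v
  rw [Matrix.toLin'_apply, Matrix.toLin'_apply]
  rw [← sub_eq_zero]
  apply adj_right_zero q hF
  intro w
  have hw : w = (x : Matrix (Fin n) (Fin n) F) *ᵥ (((x⁻¹ : GL (Fin n) F) : Matrix (Fin n) (Fin n) F) *ᵥ w) := by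
    rw [Matrix.mulVec_mulVec, ← Units.val_mul, mul_inv_cancel, Units.val_one, Matrix.one_mulVec]
  rw [Cfsg.Agent.Lib.Helper17.hermForm_sub_right hF, sub_eq_zero, hw]
  exact key _ _

end Cfsg.Agent.Lib.Helper32.AschU
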