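import Cfsg.Agent.Lib.Helper32.AschU.Defs

set_option autoImplicit false

namespace Cfsg.Agent.Lib.Helper32.AschU

theorem ar_order7 : ∀ a : ZMod 7, ∀ m : ℕ, m ≤ 6 → orderOf a = m →
    (m = 0 ∨ m = 1 ∨ m = 3 ∨ (m = 2 ∧ a = 6) ∨ (m = 6 ∧ (a = 3 ∨ a = 5))) := by
  intro a m hm h
  have h1 : a ^ m = 1 := h ▸ pow_orderOf_eq_one a
  have h2 : ∀ j : ℕ, 0 < j → j < m → a ^ j ≠ 1 := fun j hj hjm => by
    rw [← h] at hjm
    exact pow_ne_one_of_lt_orderOf hj.ne' hjm
  interval_cases m
  · simp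
  · simp
  · have := h2 1 (by norm_num) (by norm_num)
    clear h h2; revert a; decide
  · simp
  · have := h2 2 (by norm_num) (by norm_num)
    have := h2 1 (by norm_num) (by norm_num)
    clear h h2; revert a; decide
  · have := h2 1 (by norm_num) (by norm_num)
    clear h h2; revert a; decide
  · have h3 := h2 2 (by norm_num) (by norm_num)
    have h4 := h2 3 (by norm_num) (by norm_num)
    clear h h2; revert a; decide

theorem ar7 (p k : ℕ) (hp : p.Prime) (hk : 0 < k) (h : orderOf (p : ZMod 7) = 2 * k) :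
    (k = 1 ∧ p % 7 = 6) ∨ (k = 3 ∧ (p % 7 = 3 ∨ p % 7 = 5)) := by
  have hle : 2 * k ≤ 6 := by
    rw [← h]
    have : orderOf (p : ZMod 7) ≤ Fintype.card (ZMod 7) := orderOf_le_card_univ
    have h7 : Fintype.card (ZMod 7) = 7 := ZMod.card 7
    omega
  have hval : ∀ c : ℕ, c < 7 → (p : ZMod 7) = (c : ZMod 7) → p % 7 = c := by
    intro c hc he
    have := (ZMod.natCast_eq_natCast_iff' p c 7).1 he
    rw [this, Nat.mod_eq_of_lt hc]
  rcases ar_order7 (p : ZMod 7) (2 * k) hle h with h0 | h0 | h0 | ⟨h0, ha⟩ | ⟨h0, ha⟩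
  · omega
  · omega
  · omega
  · exact Or.inl ⟨by omega, hval 6 (by norm_num) (by simpa using ha)⟩
  · refine Or.inr ⟨by omega, ?_⟩
    rcases ha with ha | ha
    · exact Or.inl (hval 3 (by norm_num) (by simpa using ha))
    · exact Or.inr (hval 5 (by norm_num) (by simpa using ha))

theorem ar_order11 : ∀ a : ZMod 11, ∀ k : ℕ, 0 < k → orderOf a = 2 * k →
    ((k = 1 ∧ a = 10) ∨ (k = 5 ∧ (a = 2 ∨ a = 6 ∨ a = 7 ∨ a = 8))) := by
  intro a k hk h
  have hle : 2 * k ≤ 11 := by
    rw [← h]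
    have : orderOf a ≤ Fintype.card (ZMod 11) := orderOf_le_card_univ
    have h7 : Fintype.card (ZMod 11) = 11 := ZMod.card 11
    omega
  have h1 : a ^ (2 * k) = 1 := h ▸ pow_orderOf_eq_one a
  have h2 : ∀ j : ℕ, 0 < j → j < 2 * k → a ^ j ≠ 1 := fun j hj hjm => by
    rw [← h] at hjm
    exact pow_ne_one_of_lt_orderOf hj.ne' hjm
  have hk5 : k ≤ 5 := by omega
  interval_cases k
  · have := h2 1 (by norm_num) (by norm_num)
    clear h h2; revert a; decide
  · have := h2 2 (by norm_num) (by norm_num)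
    have := h2 1 (by norm_num) (by norm_num)
    clear h h2; revert a; decide
  · have := h2 2 (by norm_num) (by norm_num)
    have := h2 1 (by norm_num) (by norm_num)
    clear h h2; revert a; decide
  · have := h2 2 (by norm_num) (by norm_num)
    have := h2 1 (by norm_num) (by norm_num)
    clear h h2; revert a; decide
  · have := h2 2 (by norm_num) (by norm_num)
    have := h2 5 (by norm_num) (by norm_num)
    clear h h2; revert a; decide

theorem ar11 (p k : ℕ) (hp : p.Prime) (hk : 0 < k) (h : orderOf (p : ZMod 11) = 2 * k) :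
    (k = 1 ∧ p % 11 = 10) ∨ (k = 5 ∧ (p % 11 = 2 ∨ p % 11 = 6 ∨ p % 11 = 7 ∨ p % 11 = 8)) := by
  have hval : ∀ c : ℕ, c < 11 → (p : ZMod 11) = (c : ZMod 11) → p % 11 = c := by
    intro c hc he
    have := (ZMod.natCast_eq_natCast_iff' p c 11).1 he
    rw [this, Nat.mod_eq_of_lt hc]
  rcases ar_order11 (p : ZMod 11) k hk h with ⟨h0, ha⟩ | ⟨h0, ha⟩
  · exact Or.inl ⟨h0, hval 10 (by norm_num) (by simpa using ha)⟩
  · refine Or.inr ⟨h0, ?_⟩
    rcases ha with ha | ha | ha | ha
    · exact Or.inl (hval 2 (by norm_num) (by simpa using ha))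
    · exact Or.inr (Or.inl (hval 6 (by norm_num) (by simpa using ha)))
    · exact Or.inr (Or.inr (Or.inl (hval 7 (by norm_num) (by simpa using ha))))
    · exact Or.inr (Or.inr (Or.inr (hval 8 (by norm_num) (by simpa using ha))))

end Cfsg.Agent.Lib.Helper32.AschU
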