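import Cfsg.Agent.Lib.Helper32.AschU.Defs
import Cfsg.Agent.Lib.Helper17.GU

set_option autoImplicit false

namespace Cfsg.Agent.Lib.Helper32.AschU

open Cfsg Cfsg.Geo Cfsg.Agent.Lib.Helper77.Asch
open scoped MatrixGroups Matrix

variable {n : ℕ} {F : Type*} [Field F]

/-- a bilinear form on `F^n` is given by its Gram matrix -/
theorem desc1_matrix (b : (Fin n → F) → (Fin n → F) → F) (hb : IsBilinearForm b) :
    ∃ S : Matrix (Fin n) (Fin n) F, ∀ u v, b u v = u ⬝ᵥ (S *ᵥ v) := by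
  let Bf : LinearMap.BilinForm F (Fin n → F) :=
    LinearMap.mk₂ F b hb.add_left (fun c x v => by rw [hb.smul_left, smul_eq_mul]) hb.add_right
      (fun c v x => by rw [hb.smul_right, smul_eq_mul])
  refine ⟨LinearMap.BilinForm.toMatrix' Bf, ?_⟩
  intro u v
  rw [← Matrix.toBilin'_apply', Matrix.toBilin'_toMatrix']
  rfl

theorem desc1_adj (X : Matrix (Fin n) (Fin n) F) (u w : Fin n → F) :
    (X *ᵥ u) ⬝ᵥ w = u ⬝ᵥ (Xᵀ *ᵥ w) := by
  rw [dotProduct_comm, Matrix.dotProduct_mulVec, ← Matrix.mulVec_transpose, dotProduct_comm]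

theorem desc1_ext {A C : Matrix (Fin n) (Fin n) F}
    (h : ∀ u v : Fin n → F, u ⬝ᵥ (A *ᵥ v) = u ⬝ᵥ (C *ᵥ v)) : A = C := by
  ext i j
  have := h (Pi.single i 1) (Pi.single j 1)
  simpa [single_one_dotProduct, Matrix.mulVec_single_one, Matrix.col_apply] using this

/-- DESC1. -/
theorem desc1 [Fintype F] (q : ℕ) (hF : Fintype.card F = q ^ 2) (P₀ : Subgroup (GL (Fin n) F))
    (hPU : P₀ ≤ GU n F q) (Q : (Fin n → F) → F)
    (hQ : IsNondegenerateQuadraticForm Q) (hfix : FixesQuadForm (matrixSet P₀) Q) :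
    ∃ M : GL (Fin n) F, ∀ x ∈ P₀, (x : Matrix (Fin n) (Fin n) F).map (· ^ q) * (M : Matrix (Fin n) (Fin n) F) =
      (M : Matrix (Fin n) (Fin n) F) * (x : Matrix (Fin n) (Fin n) F) := by
  obtain ⟨S, hS⟩ := desc1_matrix _ hQ.polar_bilinear
  have hdet : S.det ≠ 0 := by
    intro h0
    obtain ⟨v, hv, hSv⟩ := Matrix.exists_mulVec_eq_zero_iff.mpr h0
    obtain ⟨⟨x, hx⟩, -⟩ := hQ.nondegenerate v hv
    apply hx
    rw [hS, hSv, dotProduct_zero]
  have hunit : IsUnit S := (Matrix.isUnit_iff_isUnit_det S).mpr (isUnit_iff_ne_zero.mpr hdet)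
  obtain ⟨M, hM⟩ := hunit
  refine ⟨M, ?_⟩
  intro x hx
  rw [hM]
  have h1 : (x : Matrix (Fin n) (Fin n) F)ᵀ * S * (x : Matrix (Fin n) (Fin n) F) = S := by
    apply desc1_ext
    intro u v
    have hfx := hfix (x : Matrix (Fin n) (Fin n) F) ⟨x, hx, rfl⟩
    have e : QuadraticMap.polar Q ((x : Matrix (Fin n) (Fin n) F) *ᵥ u)
        ((x : Matrix (Fin n) (Fin n) F) *ᵥ v) = QuadraticMap.polar Q u v := by
      unfold QuadraticMap.polar
      rw [← Matrix.mulVec_add, hfx, hfx, hfx]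
    rw [hS, hS, desc1_adj, Matrix.mulVec_mulVec, Matrix.mulVec_mulVec] at e
    exact e
  have h2 := Cfsg.Agent.Lib.Helper17.GU_transpose_mul_map hF (hPU hx)
  have h3 : (Cfsg.Agent.Lib.Helper17.frobQ hF).mapMatrix (x : Matrix (Fin n) (Fin n) F) =
      (x : Matrix (Fin n) (Fin n) F).map (· ^ q) := by
    ext i j
    rfl
  rw [h3] at h2
  have h4 : (x : Matrix (Fin n) (Fin n) F).map (· ^ q) * (x : Matrix (Fin n) (Fin n) F)ᵀ = 1 :=
    mul_eq_one_comm.mp h2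
  calc (x : Matrix (Fin n) (Fin n) F).map (· ^ q) * S
      = (x : Matrix (Fin n) (Fin n) F).map (· ^ q) *
        ((x : Matrix (Fin n) (Fin n) F)ᵀ * S * (x : Matrix (Fin n) (Fin n) F)) := by rw [h1]
    _ = ((x : Matrix (Fin n) (Fin n) F).map (· ^ q) * (x : Matrix (Fin n) (Fin n) F)ᵀ) * S *
        (x : Matrix (Fin n) (Fin n) F) := by simp only [mul_assoc]
    _ = S * (x : Matrix (Fin n) (Fin n) F) := by rw [h4, one_mul]

end Cfsg.Agent.Lib.Helper32.AschU
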