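import Cfsg.Agent.Lib.Helper32.AschU.Defs
import Cfsg.Agent.Lib.Helper17.UnitTransv
import Cfsg.Agent.Lib.Helper17.UnitCoord

set_option autoImplicit false

namespace Cfsg.Agent.Lib.Helper32.AschU

open Cfsg Cfsg.Geo Cfsg.Agent.Lib.Helper77.Asch
open scoped MatrixGroups Matrix

variable {n : ℕ} {F : Type*} [Field F]

open Cfsg.Agent.Lib.Helper17 in
/-- Hilbert 90 for `GL_n` and the involution `a ↦ a ^ q`. -/
theorem desc2_h90 [Fintype F] (q : ℕ) (hF : Fintype.card F = q ^ 2) (T : Matrix (Fin n) (Fin n) F)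
    (hT : T * (frobQ hF).mapMatrix T = 1) :
    ∃ C C' : Matrix (Fin n) (Fin n) F, C * C' = 1 ∧ C' * C = 1 ∧ T * (frobQ hF).mapMatrix C = C := by
  classical
  set σ := frobQ hF with hσ
  let ψ : (Fin n → F) → (Fin n → F) := fun v => T *ᵥ (fun i => σ (v i))
  have hψadd : ∀ v w, ψ (v + w) = ψ v + ψ w := by
    intro v w
    simp only [ψ]
    rw [← Matrix.mulVec_add]
    congr 1
    ext i
    simp
  have hψsmul : ∀ (a : F) v, ψ (a • v) = σ a • ψ v := by
    intro a v
    simp only [ψ]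
    rw [← Matrix.mulVec_smul]
    congr 1
    ext i
    simp
  have hψψ : ∀ v, ψ (ψ v) = v := by
    intro v
    have h1 : (fun i => σ ((T *ᵥ (fun i => σ (v i))) i)) = (σ.mapMatrix T) *ᵥ v := by
      ext i
      simp only [Matrix.mulVec, dotProduct, map_sum, map_mul, RingHom.mapMatrix_apply,
        Matrix.map_apply]
      apply Finset.sum_congr rfl
      intro j _
      rw [hσ, frobQ_frobQ]
    simp only [ψ]
    rw [h1, Matrix.mulVec_mulVec, hT, Matrix.one_mulVec]
  obtain ⟨θ, hθ⟩ : ∃ θ : F, σ θ ≠ θ := by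
    by_contra hcon
    push Not at hcon
    exact frobQ_ne_id hF (RingHom.ext hcon)
  have hspan : (⊤ : Submodule F (Fin n → F)) ≤ Submodule.span F {v | ψ v = v} := by
    intro v _
    have h1 : v + ψ v ∈ {v | ψ v = v} := by
      show ψ (v + ψ v) = v + ψ v
      rw [hψadd, hψψ, add_comm]
    have h2 : θ • v + ψ (θ • v) ∈ {v | ψ v = v} := by
      show ψ (θ • v + ψ (θ • v)) = θ • v + ψ (θ • v)
      rw [hψadd, hψψ, add_comm]
    have hne : θ - σ θ ≠ 0 := sub_ne_zero.2 (Ne.symm hθ)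
    have e : v = (θ - σ θ)⁻¹ • ((θ • v + ψ (θ • v)) - σ θ • (v + ψ v)) := by
      rw [hψsmul, smul_add, add_sub_add_right_eq_sub, ← sub_smul, smul_smul, inv_mul_cancel₀ hne,
        one_smul]
    rw [e]
    exact Submodule.smul_mem _ _ (Submodule.sub_mem _ (Submodule.subset_span h2)
      (Submodule.smul_mem _ _ (Submodule.subset_span h1)))
  let b0 := Module.Basis.ofSpan hspan
  let b : Module.Basis (Fin n) F (Fin n → F) := b0.reindex (b0.indexEquiv (Pi.basisFun F (Fin n)))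
  have hb : ∀ j, ψ (b j) = b j := by
    intro j
    have : b j ∈ Set.range b0 := by
      rw [Module.Basis.reindex_apply]
      exact Set.mem_range_self _
    exact Module.Basis.ofSpan_subset hspan this
  refine ⟨(Pi.basisFun F (Fin n)).toMatrix b, b.toMatrix (Pi.basisFun F (Fin n)),
    Module.Basis.toMatrix_mul_toMatrix_flip _ _, Module.Basis.toMatrix_mul_toMatrix_flip _ _, ?_⟩
  ext i j
  have := congrFun (hb j) i
  simp only [ψ, Matrix.mulVec, dotProduct] at this
  simp only [Matrix.mul_apply, RingHom.mapMatrix_apply, Matrix.map_apply,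
    Module.Basis.toMatrix_apply, Pi.basisFun_repr]
  exact this

open Cfsg.Agent.Lib.Helper17 in
/-- DESC2 (Galois descent by hand). -/
theorem desc2 [Fintype F] (q : ℕ) (hF : Fintype.card F = q ^ 2) (hn : 0 < n) (P₀ : Subgroup (GL (Fin n) F))
    (hP : ActsAbsolutelyIrreducibly (matrixSet P₀)) (M : GL (Fin n) F)
    (hM : ∀ x ∈ P₀, (x : Matrix (Fin n) (Fin n) F).map (· ^ q) * (M : Matrix (Fin n) (Fin n) F) =
      (M : Matrix (Fin n) (Fin n) F) * (x : Matrix (Fin n) (Fin n) F)) :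
    ∃ F₀ : Subfield F, F₀ ≠ ⊤ ∧ RealisableOver F₀ (matrixSet P₀) := by
  classical
  haveI : Nonempty (Fin n) := ⟨⟨0, hn⟩⟩
  set σ := frobQ hF with hσ
  set Φ : Matrix (Fin n) (Fin n) F →+* Matrix (Fin n) (Fin n) F := σ.mapMatrix with hΦ
  have hΦΦ : ∀ A, Φ (Φ A) = A := by
    intro A
    ext i j
    simp only [hΦ, RingHom.mapMatrix_apply, Matrix.map_apply]
    rw [hσ, frobQ_frobQ]
  have hΦs : ∀ (c : F) A, Φ (c • A) = σ c • Φ A := by
    intro c A
    ext i j
    simp [hΦ, RingHom.mapMatrix_apply, Matrix.map_apply]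
  set Mm : Matrix (Fin n) (Fin n) F := (M : Matrix (Fin n) (Fin n) F) with hMm
  set N : Matrix (Fin n) (Fin n) F := ((M⁻¹ : GL (Fin n) F) : Matrix (Fin n) (Fin n) F) with hN
  have hMN : Mm * N = 1 := by rw [hMm, hN, ← Units.val_mul, mul_inv_cancel, Units.val_one]
  have hNM : N * Mm = 1 := by rw [hMm, hN, ← Units.val_mul, inv_mul_cancel, Units.val_one]
  have hx1 : ∀ x ∈ P₀, Φ (x : Matrix (Fin n) (Fin n) F) * Mm = Mm * x := hM
  have hx2 : ∀ x ∈ P₀, N * Φ (x : Matrix (Fin n) (Fin n) F) = x * N := by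
    intro x hx
    calc N * Φ (x : Matrix (Fin n) (Fin n) F)
        = N * (Φ (x : Matrix (Fin n) (Fin n) F) * Mm) * N := by
          rw [mul_assoc, mul_assoc, hMN, mul_one]
      _ = N * (Mm * x) * N := by rw [hx1 x hx]
      _ = x * N := by rw [← mul_assoc, hNM, one_mul]
  have hx3 : ∀ x ∈ P₀, Φ N * (x : Matrix (Fin n) (Fin n) F) = Φ x * Φ N := by
    intro x hx
    have := congrArg Φ (hx2 x hx)
    rw [map_mul, map_mul, hΦΦ] at this
    exact this
  obtain ⟨c, hc⟩ := hP.2 (N * Φ N) (by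
    rintro s ⟨x, hx, rfl⟩
    show N * Φ N * (x : Matrix (Fin n) (Fin n) F) = x * (N * Φ N)
    rw [mul_assoc, hx3 x hx, ← mul_assoc, hx2 x hx, mul_assoc])
  have hΦN : Φ N = c • Mm := by
    calc Φ N = Mm * (N * Φ N) := by rw [← mul_assoc, hMN, one_mul]
      _ = c • Mm := by rw [hc, Matrix.mul_smul, mul_one]
  have hc0 : c ≠ 0 := by
    rintro rfl
    rw [zero_smul] at hΦN
    have h1 : N = 0 := by rw [← hΦΦ N, hΦN, map_zero]
    rw [h1, mul_zero] at hMN
    exact zero_ne_one hMN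
  have hcq : c ^ q = c := by
    have h1 : Φ N * N = c • (1 : Matrix (Fin n) (Fin n) F) := by
      rw [hΦN, Matrix.smul_mul, hMN]
    have h2 : Φ N * N = σ c • (1 : Matrix (Fin n) (Fin n) F) := by
      have := congrArg Φ hc
      rw [map_mul, hΦΦ, hΦs, map_one] at this
      exact this
    have h3 := congrFun (congrFun (h1.symm.trans h2) ⟨0, hn⟩) ⟨0, hn⟩
    simp only [Matrix.smul_apply, Matrix.one_apply_eq, smul_eq_mul, mul_one] at h3
    exact h3.symm
  obtain ⟨lam, hlam⟩ := exists_norm_eq hF c⁻¹ (inv_ne_zero hc0) (by rw [inv_pow, hcq])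
  set T : Matrix (Fin n) (Fin n) F := lam • N with hTdef
  have hT : T * Φ T = 1 := by
    rw [hTdef, hΦs, Matrix.smul_mul, Matrix.mul_smul, hc, smul_smul, smul_smul]
    have : lam * σ lam * c = 1 := by
      have e : lam * σ lam = lam ^ (q + 1) := by rw [hσ, frobQ_apply, pow_succ, mul_comm]
      rw [e, hlam, inv_mul_cancel₀ hc0]
    rw [this, one_smul]
  have hT' : Φ T * T = 1 := mul_eq_one_comm.1 hT
  have hTx : ∀ x ∈ P₀, T * Φ (x : Matrix (Fin n) (Fin n) F) = x * T := by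
    intro x hx
    rw [hTdef, Matrix.smul_mul, hx2 x hx, Matrix.mul_smul]
  obtain ⟨C, C', hCC', hC'C, hTC⟩ := desc2_h90 q hF T hT
  have hTC' : T * Φ C = C := hTC
  have hC1 : Φ C = Φ T * C := by
    calc Φ C = (Φ T * T) * Φ C := by rw [hT', one_mul]
      _ = Φ T * C := by rw [mul_assoc, hTC']
  have hC2 : Φ C' = C' * T := by
    have h1 : Φ C' * Φ C = 1 := by rw [← map_mul, hC'C, map_one]
    have h2 : Φ C * (C' * T) = 1 := by
      rw [hC1, mul_assoc, ← mul_assoc C, hCC', one_mul, hT']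
    calc Φ C' = Φ C' * (Φ C * (C' * T)) := by rw [h2, mul_one]
      _ = C' * T := by rw [← mul_assoc, h1, one_mul]
  refine ⟨RingHom.eqLocusField σ (RingHom.id F), ?_, ⟨C', C, hC'C, hCC'⟩, ?_⟩
  · intro htop
    apply frobQ_ne_id hF
    ext a
    have : a ∈ RingHom.eqLocusField σ (RingHom.id F) := by rw [htop]; trivial
    exact this
  · rintro s ⟨x, hx, rfl⟩ i j
    show σ ((C' * (x : Matrix (Fin n) (Fin n) F) * C) i j) =
      (C' * (x : Matrix (Fin n) (Fin n) F) * C) i j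
    have key : Φ (C' * (x : Matrix (Fin n) (Fin n) F) * C) = C' * x * C := by
      rw [map_mul, map_mul, hC1, hC2]
      calc C' * T * Φ (x : Matrix (Fin n) (Fin n) F) * (Φ T * C)
          = C' * (T * Φ (x : Matrix (Fin n) (Fin n) F)) * Φ T * C := by simp only [mul_assoc]
        _ = C' * x * (T * Φ T) * C := by rw [hTx x hx]; simp only [mul_assoc]
        _ = C' * x * C := by rw [hT, mul_one]
    exact congrFun (congrFun key i) j

end Cfsg.Agent.Lib.Helper32.AschU
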