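import Cfsg.Agent.Lib.Helper32.AschU.Defs
import Cfsg.Agent.Lib.Helper17.GU

set_option autoImplicit false

namespace Cfsg.Agent.Lib.Helper32.AschU

open Cfsg Cfsg.Geo Cfsg.Agent.Lib.Helper77.Asch Cfsg.Agent.Lib.Helper17
open scoped MatrixGroups Matrix

variable {n : ℕ} {F : Type*} [Field F]

/-- `g` multiplies the hermitian form by `c`. -/
def exuMu (q : ℕ) (g : GL (Fin n) F) (c : F) : Prop :=
  ∀ u v, hermForm n F q ((g : Matrix (Fin n) (Fin n) F) *ᵥ u) ((g : Matrix (Fin n) (Fin n) F) *ᵥ v) =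
    c * hermForm n F q u v

theorem exuMu_mul {q : ℕ} {g h : GL (Fin n) F} {c d : F} (hg : exuMu q g c) (hh : exuMu q h d) :
    exuMu q (g * h) (c * d) := by
  intro u v
  rw [Units.val_mul, ← Matrix.mulVec_mulVec, ← Matrix.mulVec_mulVec, hg, hh, mul_assoc]

theorem exuMu_one (q : ℕ) : exuMu q (1 : GL (Fin n) F) 1 := by
  intro u v
  rw [Units.val_one, Matrix.one_mulVec, Matrix.one_mulVec, one_mul]

theorem exuMu_pow {q : ℕ} {g : GL (Fin n) F} {c : F} (hg : exuMu q g c) (k : ℕ) : exuMu q (g ^ k) (c ^ k) := by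
  induction k with
  | zero => rw [pow_zero, pow_zero]; exact exuMu_one q
  | succ k ih => rw [pow_succ, pow_succ]; exact exuMu_mul ih hg

theorem exuMu_val (hn : 0 < n) {q : ℕ} {g : GL (Fin n) F} {c : F} (hg : exuMu q g c) :
    c = hermForm n F q ((g : Matrix (Fin n) (Fin n) F) *ᵥ Pi.single ⟨0, hn⟩ 1)
      ((g : Matrix (Fin n) (Fin n) F) *ᵥ Pi.single ⟨0, hn⟩ 1) := by
  rw [hg, hermForm_single_left, Pi.single_eq_same, one_pow, mul_one]

theorem exuMu_uniq (hn : 0 < n) {q : ℕ} {g : GL (Fin n) F} {c d : F} (hg : exuMu q g c) (hg' : exuMu q g d) :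
    c = d := by
  rw [exuMu_val hn hg, ← exuMu_val hn hg']

theorem exuMu_sc (q : ℕ) (w : Fˣ) : exuMu q (sc w : GL (Fin n) F) ((w : F) ^ (q + 1)) := by
  intro u v
  have e : ∀ z : Fin n → F, ((sc w : GL (Fin n) F) : Matrix (Fin n) (Fin n) F) *ᵥ z = (w : F) • z := by
    intro z
    show (Matrix.scalar (Fin n) (w : F)) *ᵥ z = _
    rw [Matrix.scalar_apply, ← Matrix.smul_one_eq_diagonal, Matrix.smul_mulVec, Matrix.one_mulVec]
  rw [e, e, hermForm_smul_left, hermForm_smul_right, ← mul_assoc, pow_succ']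

theorem exuMu_fix [Fintype F] {q : ℕ} (hF : Fintype.card F = q ^ 2) (hn : 0 < n) {g : GL (Fin n) F} {c : F}
    (hg : exuMu q g c) : c ^ q = c := by
  conv_lhs => rw [exuMu_val hn hg]
  rw [hermForm_conj hF, ← exuMu_val hn hg]

/-- EXU.  The multiplier μ g (f (g u) (g v) = μ g * f u v; n > 0, f e₀ e₀ = 1, so μ g = f (g e₀) (g e₀), fixed by a ↦ a^q) is multiplicative.
h.comm ⇒ μ (sc w) = 1 = w^(q+1).  So n ∣ q + 1 (h.w_ord), n odd prime: n ∤ q - 1 (else n ∣ 2).  μ x ^ n = μ (x^n) = 1 = μ x ^ (q-1) ⇒ μ x = 1, same for y; h.gen. -/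
theorem exu [Fintype F] (q : ℕ) (hF : Fintype.card F = q ^ 2) (hn : n.Prime) (h2 : n ≠ 2)
    (R : Subgroup (GL (Fin n) F)) (x y : GL (Fin n) F) (w : Fˣ) (h : Heis R x y w)
    (hR : R ≤ similarityGroup (hermForm n F q)) : (w : F) ^ (q + 1) = 1 ∧ R ≤ GU n F q := by
  have hn0 : 0 < n := hn.pos
  have hq2 := two_le_of_card_sq hF
  obtain ⟨cx, hcx⟩ := hR h.x_mem
  obtain ⟨cy, hcy⟩ := hR h.y_mem
  have hx : exuMu q x (cx : F) := hcx
  have hy : exuMu q y (cy : F) := hcy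
  -- the scalar
  have hw : (w : F) ^ (q + 1) = 1 := by
    have h1 : exuMu q (x * y) ((cx : F) * cy) := exuMu_mul hx hy
    have h3 : exuMu q (sc w * (y * x)) ((w : F) ^ (q + 1) * ((cy : F) * cx)) :=
      exuMu_mul (exuMu_sc q w) (exuMu_mul hy hx)
    rw [← h.comm] at h3
    have h4 := exuMu_uniq hn0 h1 h3
    have h5 : ((cy : F) * cx) ≠ 0 := mul_ne_zero cy.ne_zero cx.ne_zero
    have h6 : (1 : F) * ((cy : F) * cx) = (w : F) ^ (q + 1) * ((cy : F) * cx) := by
      rw [one_mul, ← h4, mul_comm]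
    exact (mul_right_cancel₀ h5 h6).symm
  have hdvd : n ∣ q + 1 := by
    rw [← h.w_ord]
    apply orderOf_dvd_of_pow_eq_one
    apply Units.ext
    rw [Units.val_pow_eq_pow_val, hw, Units.val_one]
  have hcop : Nat.Coprime n (q - 1) := by
    rw [Nat.Prime.coprime_iff_not_dvd hn]
    intro hd
    have h3 : n ∣ (q + 1) - (q - 1) := Nat.dvd_sub hdvd hd
    have h4 : (q + 1) - (q - 1) = 2 := by omega
    rw [h4] at h3
    exact h2 ((Nat.prime_dvd_prime_iff_eq hn Nat.prime_two).1 h3)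
  -- multipliers of elements of order dividing `n` are trivial
  have key : ∀ (g : GL (Fin n) F) (c : Fˣ), exuMu q g (c : F) → g ^ n = 1 → (c : F) = 1 := by
    intro g c hg hgn
    have h1 : (c : F) ^ n = 1 := by
      have := exuMu_pow hg n
      rw [hgn] at this
      exact exuMu_uniq hn0 this (exuMu_one q)
    have h3 : (c : F) ^ (q - 1) = 1 := by
      have h4 := exuMu_fix hF hn0 hg
      have h5 : (c : F) ^ (q - 1) * c = 1 * c := by
        rw [← pow_succ, one_mul, show q - 1 + 1 = q by omega, h4]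
      exact mul_right_cancel₀ c.ne_zero h5
    have h6 : orderOf (c : F) ∣ n := orderOf_dvd_of_pow_eq_one h1
    have h7 : orderOf (c : F) ∣ q - 1 := orderOf_dvd_of_pow_eq_one h3
    have h8 : orderOf (c : F) = 1 := Nat.eq_one_of_dvd_coprimes hcop h6 h7
    exact orderOf_eq_one_iff.1 h8
  have hx1 : exuMu q x 1 := by
    have := key x cx hx h.x_pow
    rwa [this] at hx
  have hy1 : exuMu q y 1 := by
    have := key y cy hy h.y_pow
    rwa [this] at hy
  have hs1 : exuMu q (sc w : GL (Fin n) F) 1 := by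
    have := exuMu_sc (n := n) q w
    rwa [hw] at this
  refine ⟨hw, ?_⟩
  intro g hg
  obtain ⟨a, b, c, rfl⟩ := h.gen g hg
  have h9 := exuMu_mul (exuMu_pow hs1 c) (exuMu_mul (exuMu_pow hx1 a) (exuMu_pow hy1 b))
  rw [one_pow, one_pow, one_pow, one_mul, one_mul] at h9
  rw [mem_GU_iff]
  intro u v
  rw [h9, one_mul]

end Cfsg.Agent.Lib.Helper32.AschU
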