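import Cfsg.Agent.Lib.Helper32.AschU.Defs
import Cfsg.Agent.Lib.Helper17.Herm

set_option autoImplicit false

namespace Cfsg.Agent.Lib.Helper32.AschU

open Cfsg Cfsg.Geo Cfsg.Agent.Lib.Helper77.Asch
open scoped MatrixGroups Matrix

variable {n : ℕ} {F : Type*} [Field F]

theorem fmin_cast {n m : ℕ} (hm : 1 ≤ m) : n ∣ m - 1 ↔ ((m : ℕ) : ZMod n) = 1 := by
  rw [← ZMod.natCast_eq_zero_iff, Nat.cast_sub hm, Nat.cast_one, sub_eq_zero]

/-- FMIN. -/
theorem fmin [Fintype F] (q : ℕ) (hF : Fintype.card F = q ^ 2) (hn : n.Prime) (w : Fˣ)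
    (hw : orderOf w = n) (hmin : ∀ F₀ : Subfield F, (w : F) ∈ F₀ → F₀ = ⊤) :
    ∃ p k : ℕ, p.Prime ∧ CharP F p ∧ 0 < k ∧ q = p ^ k ∧ orderOf (p : ZMod n) = 2 * k := by
  classical
  obtain ⟨p, k, hp, hchar, hq⟩ := Cfsg.Agent.Lib.Helper17.exists_char_pow hF
  have hk : 0 < k := by
    rcases Nat.eq_zero_or_pos k with rfl | h
    · exfalso
      rw [hq] at hF
      simp only [pow_zero, one_pow] at hF
      have := Fintype.one_lt_card (α := F)
      omega
    · exact h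
  refine ⟨p, k, hp, hchar, hk, hq, ?_⟩
  have hcard : Fintype.card F = p ^ (2 * k) := by rw [hF, hq, ← pow_mul, mul_comm]
  have hpos : ∀ m : ℕ, 1 ≤ p ^ m := fun m => Nat.one_le_pow _ _ hp.pos
  have hcu : Fintype.card Fˣ = p ^ (2 * k) - 1 := by rw [Fintype.card_units, hcard]
  have h1 : ((p : ℕ) : ZMod n) ^ (2 * k) = 1 := by
    have : n ∣ p ^ (2 * k) - 1 := by
      rw [← hw, ← hcu]; exact orderOf_dvd_card
    rw [fmin_cast (hpos _)] at this
    rwa [Nat.cast_pow] at this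
  have hd1 : orderOf ((p : ℕ) : ZMod n) ∣ 2 * k := orderOf_dvd_of_pow_eq_one h1
  have hd0 : 0 < orderOf ((p : ℕ) : ZMod n) := Nat.pos_of_dvd_of_pos hd1 (by omega)
  set d := orderOf ((p : ℕ) : ZMod n) with hd
  have h2 : n ∣ p ^ d - 1 := by
    rw [fmin_cast (hpos _), Nat.cast_pow]
    exact pow_orderOf_eq_one _
  have h3 : w ^ (p ^ d) = w := by
    have : w ^ (p ^ d - 1) = 1 := by
      rw [← hw] at h2
      exact orderOf_dvd_iff_pow_eq_one.mp h2
    calc w ^ (p ^ d) = w ^ (p ^ d - 1 + 1) := by rw [Nat.sub_add_cancel (hpos d)]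
      _ = w := by rw [pow_succ, this, one_mul]
  have hexp : ExpChar F p := ExpChar.prime hp
  have htop := hmin ((iterateFrobenius F p d).eqLocusField (RingHom.id F)) (by
    rw [RingHom.mem_eqLocusField, iterateFrobenius_def, RingHom.id_apply, ← Units.val_pow_eq_pow_val,
      h3])
  have hall : ∀ a : F, a ^ (p ^ d) = a := by
    intro a
    have : a ∈ (iterateFrobenius F p d).eqLocusField (RingHom.id F) := by rw [htop]; trivial
    rw [RingHom.mem_eqLocusField, iterateFrobenius_def, RingHom.id_apply] at this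
    exact this
  obtain ⟨g, hg⟩ := IsCyclic.exists_ofOrder_eq_natCard (α := Fˣ)
  rw [Nat.card_eq_fintype_card, hcu] at hg
  have h4 : g ^ (p ^ d - 1) = 1 := by
    have h5 : g ^ (p ^ d) = g := by
      apply Units.ext
      rw [Units.val_pow_eq_pow_val]
      exact hall _
    have h6 : g ^ (p ^ d - 1) * g = g := by
      rw [← pow_succ, Nat.sub_add_cancel (hpos d)]; exact h5
    exact mul_eq_right.mp h6
  have h7 : p ^ (2 * k) - 1 ∣ p ^ d - 1 := by
    rw [← hg]; exact orderOf_dvd_of_pow_eq_one h4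
  have h8 : 1 < p ^ d := Nat.one_lt_pow hd0.ne' hp.one_lt
  have h9 : p ^ (2 * k) - 1 ≤ p ^ d - 1 := Nat.le_of_dvd (by omega) h7
  have h10 : p ^ (2 * k) ≤ p ^ d := by have := hpos (2 * k); omega
  have h11 : 2 * k ≤ d := (Nat.pow_le_pow_iff_right hp.one_lt).mp h10
  exact le_antisymm (Nat.le_of_dvd (by omega) hd1) h11

end Cfsg.Agent.Lib.Helper32.AschU
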