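import Cfsg.Agent.Lib.Helper32.AschU.Defs
import Cfsg.Agent.Lib.Helper17.GU

set_option autoImplicit false

namespace Cfsg.Agent.Lib.Helper32.AschU

open Cfsg Cfsg.Geo Cfsg.Agent.Lib.Helper77.Asch Cfsg.Agent.Lib.Helper17
open scoped MatrixGroups Matrix

variable {n : ℕ} {F : Type*} [Field F]

theorem gram_map_eq [Fintype F] (q : ℕ) (hF : Fintype.card F = q ^ 2) (A : Matrix (Fin n) (Fin n) F) :
    A.map (· ^ q) = (frobQ hF).mapMatrix A := rfl

theorem gram_map_mul [Fintype F] (q : ℕ) (hF : Fintype.card F = q ^ 2) (A B : Matrix (Fin n) (Fin n) F) :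
    (A * B).map (· ^ q) = A.map (· ^ q) * B.map (· ^ q) := by
  rw [gram_map_eq q hF, gram_map_eq q hF, gram_map_eq q hF, map_mul]

theorem gram_map_map [Fintype F] (q : ℕ) (hF : Fintype.card F = q ^ 2) (A : Matrix (Fin n) (Fin n) F) :
    (A.map (· ^ q)).map (· ^ q) = A := by
  ext i j
  simp only [Matrix.map_apply]
  exact pow_q_pow_q hF _

theorem gram_map_mulVec [Fintype F] (q : ℕ) (hF : Fintype.card F = q ^ 2) (A : Matrix (Fin n) (Fin n) F)
    (v : Fin n → F) : (fun j => (A *ᵥ v) j ^ q) = A.map (· ^ q) *ᵥ (fun j => v j ^ q) := by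
  funext j
  simp only [Matrix.mulVec, dotProduct, Matrix.map_apply]
  rw [sum_pow_q hF]
  exact Finset.sum_congr rfl fun i _ => mul_pow _ _ _

theorem herm_eq_dot (q : ℕ) (a b : Fin n → F) : hermForm n F q a b = a ⬝ᵥ (fun j => b j ^ q) := rfl

/-- GRAM.  f a b = a ⬝ᵥ b^(q); (C v)^(q) = C^(q) v^(q). -/
theorem gram_apply [Fintype F] (q : ℕ) (hF : Fintype.card F = q ^ 2) (C : GL (Fin n) F) (u v : Fin n → F) :
    hermForm n F q ((C : Matrix (Fin n) (Fin n) F) *ᵥ u) ((C : Matrix (Fin n) (Fin n) F) *ᵥ v) =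
      u ⬝ᵥ (gram q C *ᵥ (fun j => v j ^ q)) := by
  rw [herm_eq_dot, gram_map_mulVec q hF, gram, ← Matrix.mulVec_mulVec, Matrix.dotProduct_mulVec,
    Matrix.dotProduct_mulVec, Matrix.vecMul_transpose, Matrix.dotProduct_mulVec]

/-- GRAM. -/
theorem gram_entry [Fintype F] (q : ℕ) (hF : Fintype.card F = q ^ 2) (C : GL (Fin n) F) (i j : Fin n) :
    gram q C i j = hermForm n F q ((C : Matrix (Fin n) (Fin n) F) *ᵥ Pi.single i 1)
      ((C : Matrix (Fin n) (Fin n) F) *ᵥ Pi.single j 1) := by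
  have hq := two_le_of_card_sq hF
  rw [gram_apply q hF]
  have : (fun k => (Pi.single j (1 : F) : Fin n → F) k ^ q) = Pi.single j 1 := by
    funext k
    by_cases h : k = j
    · subst h; simp
    · simp [Pi.single_apply, h, show q ≠ 0 by omega]
  rw [this, Matrix.mulVec_single_one, single_one_dotProduct]
  rfl

/-- GRAM. -/
theorem gram_isUnit [Fintype F] (q : ℕ) (hF : Fintype.card F = q ^ 2) (C : GL (Fin n) F) :
    IsUnit (gram q C) := by
  rw [Matrix.isUnit_iff_isUnit_det, gram, Matrix.det_mul, Matrix.det_transpose, gram_map_eq q hF,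
    ← RingHom.map_det]
  have h : IsUnit (C : Matrix (Fin n) (Fin n) F).det := (Matrix.isUnit_iff_isUnit_det _).1 C.isUnit
  exact h.mul (h.map _)

/-- GRAM. -/
theorem gram_herm [Fintype F] (q : ℕ) (hF : Fintype.card F = q ^ 2) (C : GL (Fin n) F) :
    (gram q C)ᵀ = (gram q C).map (· ^ q) := by
  rw [gram, gram_map_mul q hF, gram_map_map q hF, Matrix.transpose_mul, Matrix.transpose_transpose]
  rfl

/-- GRAM.  x ∈ GU ⇒ xᵀ * x.map (·^q) = 1.  C x' = x C. -/
theorem gram_inv [Fintype F] (q : ℕ) (hF : Fintype.card F = q ^ 2) (C x : GL (Fin n) F) (hx : x ∈ GU n F q) :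
    ((C⁻¹ * x * C : GL (Fin n) F) : Matrix (Fin n) (Fin n) F)ᵀ * gram q C *
      ((C⁻¹ * x * C : GL (Fin n) F) : Matrix (Fin n) (Fin n) F).map (· ^ q) = gram q C := by
  have h1 : (C : Matrix (Fin n) (Fin n) F) * ((C⁻¹ * x * C : GL (Fin n) F) : Matrix (Fin n) (Fin n) F) =
      (x : Matrix (Fin n) (Fin n) F) * (C : Matrix (Fin n) (Fin n) F) := by
    rw [← Units.val_mul, ← Units.val_mul]
    congr 1
    group
  have h2 := GU_transpose_mul_map hF hx
  rw [← gram_map_eq q hF] at h2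
  set y : Matrix (Fin n) (Fin n) F := ((C⁻¹ * x * C : GL (Fin n) F) : Matrix (Fin n) (Fin n) F) with hy
  calc yᵀ * gram q C * y.map (· ^ q)
      = ((C : Matrix (Fin n) (Fin n) F) * y)ᵀ * ((C : Matrix (Fin n) (Fin n) F) * y).map (· ^ q) := by
        rw [gram, gram_map_mul q hF, Matrix.transpose_mul]
        simp only [mul_assoc]
    _ = (C : Matrix (Fin n) (Fin n) F)ᵀ * ((x : Matrix (Fin n) (Fin n) F)ᵀ * (x : Matrix (Fin n) (Fin n) F).map (· ^ q)) *
          (C : Matrix (Fin n) (Fin n) F).map (· ^ q) := by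
        rw [h1, gram_map_mul q hF, Matrix.transpose_mul]
        simp only [mul_assoc]
    _ = gram q C := by rw [h2, mul_one, gram]

/-- GRAM.  M commutes with all B s B⁻¹ ⇒ B⁻¹ M B commutes with all s ⇒ scalar ⇒ M scalar. -/
theorem scalar_of_commutes_conj (P₀ : Subgroup (GL (Fin n) F)) (hP : ActsAbsolutelyIrreducibly (matrixSet P₀))
    (B : GL (Fin n) F) (M : Matrix (Fin n) (Fin n) F)
    (hM : ∀ x ∈ P₀, M * ((B * x * B⁻¹ : GL (Fin n) F) : Matrix (Fin n) (Fin n) F) =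
      ((B * x * B⁻¹ : GL (Fin n) F) : Matrix (Fin n) (Fin n) F) * M) : ∃ c : F, M = c • (1 : Matrix (Fin n) (Fin n) F) := by
  set b : Matrix (Fin n) (Fin n) F := (B : Matrix (Fin n) (Fin n) F) with hb
  set b' : Matrix (Fin n) (Fin n) F := ((B⁻¹ : GL (Fin n) F) : Matrix (Fin n) (Fin n) F) with hb'
  have h1 : b * b' = 1 := by rw [hb, hb', ← Units.val_mul, mul_inv_cancel, Units.val_one]
  have h2 : b' * b = 1 := by rw [hb, hb', ← Units.val_mul, inv_mul_cancel, Units.val_one]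
  obtain ⟨c, hc⟩ := hP.2 (b' * M * b) (by
    rintro _ ⟨x, hx, rfl⟩
    have h := hM x hx
    simp only [Units.val_mul] at h
    show b' * M * b * (x : Matrix (Fin n) (Fin n) F) = (x : Matrix (Fin n) (Fin n) F) * (b' * M * b)
    calc b' * M * b * (x : Matrix (Fin n) (Fin n) F)
        = b' * (M * (b * (x : Matrix (Fin n) (Fin n) F) * b')) * b := by
          simp only [mul_assoc]; rw [h2, mul_one]
      _ = b' * ((b * (x : Matrix (Fin n) (Fin n) F) * b') * M) * b := by rw [h]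
      _ = (x : Matrix (Fin n) (Fin n) F) * (b' * M * b) := by
          simp only [← mul_assoc]; rw [h2, one_mul])
  refine ⟨c, ?_⟩
  calc M = b * (b' * M * b) * b' := by
        simp only [← mul_assoc]; rw [h1, one_mul, mul_assoc, h1, mul_one]
    _ = c • 1 := by rw [hc]; simp [h1]

end Cfsg.Agent.Lib.Helper32.AschU
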