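import Cfsg.Agent.Lib.Helper32.AschU.Defs
import Cfsg.Agent.Lib.Helper32.AschU.GRAM

set_option autoImplicit false

namespace Cfsg.Agent.Lib.Helper32.AschU

open Cfsg Cfsg.Geo Cfsg.Agent.Lib.Helper77.Asch
open scoped MatrixGroups Matrix

variable {n : ℕ} {F : Type*} [Field F]

theorem fr2_pow_of_mem [Finite F] (F₁ : Subfield F) {q : ℕ} (hq : Nat.card F₁ = q) {a : F}
    (ha : a ∈ F₁) : a ^ q = a := by
  have : Fintype F₁ := Fintype.ofFinite F₁
  have h := FiniteField.pow_card (⟨a, ha⟩ : F₁)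
  rw [← Nat.card_eq_fintype_card, hq] at h
  exact congrArg Subtype.val h

theorem fr2_mem_of_pow [Fintype F] (F₁ : Subfield F) {q : ℕ} (hq : Nat.card F₁ = q) {a : F}
    (ha : a ^ q = a) : a ∈ F₁ := by
  classical
  have hq1 : 1 < q := by rw [← hq]; exact Finite.one_lt_card
  have hP0 : (Polynomial.X ^ q - Polynomial.X : Polynomial F) ≠ 0 :=
    FiniteField.X_pow_card_sub_X_ne_zero F hq1
  have hdeg : (Polynomial.X ^ q - Polynomial.X : Polynomial F).natDegree = q :=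
    FiniteField.X_pow_card_sub_X_natDegree_eq F hq1
  have hroot : ∀ b : F, b ∈ (Polynomial.X ^ q - Polynomial.X : Polynomial F).roots.toFinset ↔
      b ^ q = b := by
    intro b
    rw [Multiset.mem_toFinset, Polynomial.mem_roots hP0]
    simp [Polynomial.IsRoot, sub_eq_zero]
  have hS : (Finset.univ.filter (· ∈ F₁) : Finset F).card = q := by
    rw [← hq, Nat.card_eq_fintype_card, Fintype.card_subtype]
  have hsub : (Finset.univ.filter (· ∈ F₁) : Finset F) ⊆
      (Polynomial.X ^ q - Polynomial.X : Polynomial F).roots.toFinset := by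
    intro b hb
    rw [hroot]
    exact fr2_pow_of_mem F₁ hq (Finset.mem_filter.mp hb).2
  have hle : (Polynomial.X ^ q - Polynomial.X : Polynomial F).roots.toFinset.card ≤
      (Finset.univ.filter (· ∈ F₁) : Finset F).card :=
    (Multiset.toFinset_card_le _).trans ((Polynomial.card_roots' _).trans (by rw [hdeg, hS]))
  have heq := Finset.eq_of_subset_of_card_le hsub hle
  have ha' : a ∈ (Finset.univ.filter (· ∈ F₁) : Finset F) := by rw [heq, hroot]; exact ha
  exact (Finset.mem_filter.mp ha').2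

theorem fr2_card [Fintype F] {q : ℕ} (hF : Fintype.card F = q ^ 2) (F₁ : Subfield F)
    (hc : Fintype.card F = Nat.card F₁ ^ 2) : Nat.card F₁ = q := by
  rw [hF] at hc
  exact (Nat.pow_left_injective (n := 2) (by norm_num) hc).symm

/-- the invariance `x'ᵀ J x' = J` for `x' = B x B⁻¹` with entries in `F₁` -/
theorem fr2_inv [Fintype F] (q : ℕ) (hF : Fintype.card F = q ^ 2) (P₀ : Subgroup (GL (Fin n) F))
    (hPU : P₀ ≤ GU n F q) (F₁ : Subfield F)
    (hc : Fintype.card F = Nat.card F₁ ^ 2) (B : GL (Fin n) F)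
    (hB : ∀ s ∈ matrixSet P₀, ∀ i j,
      ((B : Matrix (Fin n) (Fin n) F) * s * ((B⁻¹ : GL (Fin n) F) : Matrix (Fin n) (Fin n) F)) i j ∈ F₁)
    (x : GL (Fin n) F) (hx : x ∈ P₀) :
    ((B * x * B⁻¹ : GL (Fin n) F) : Matrix (Fin n) (Fin n) F)ᵀ * gram q B⁻¹ *
      ((B * x * B⁻¹ : GL (Fin n) F) : Matrix (Fin n) (Fin n) F) = gram q B⁻¹ := by
  have h := gram_inv q hF B⁻¹ x (hPU hx)
  rw [inv_inv] at h
  have hmap : ((B * x * B⁻¹ : GL (Fin n) F) : Matrix (Fin n) (Fin n) F).map (· ^ q) =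
      ((B * x * B⁻¹ : GL (Fin n) F) : Matrix (Fin n) (Fin n) F) := by
    ext i j
    rw [Matrix.map_apply]
    apply fr2_pow_of_mem F₁ (fr2_card hF F₁ hc)
    have := hB (x : Matrix (Fin n) (Fin n) F) ⟨x, hx, rfl⟩ i j
    simpa using this
  rwa [hmap] at h

theorem fr2_alg {R : Type*} [Monoid R] (X Xt Xi J Jt Ji : R) (h1 : Xt * J * X = J)
    (h2 : Xt * Jt * X = Jt) (hXi : X * Xi = 1) (hJ1 : Ji * J = 1) (hJ2 : J * Ji = 1) :
    Ji * Jt * X = X * (Ji * Jt) := by
  have ha : Xt * J = J * Xi := by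
    calc Xt * J = Xt * J * (X * Xi) := by rw [hXi, mul_one]
      _ = (Xt * J * X) * Xi := by simp only [mul_assoc]
      _ = J * Xi := by rw [h1]
  have hb : Xt = J * Xi * Ji := by
    calc Xt = Xt * (J * Ji) := by rw [hJ2, mul_one]
      _ = (Xt * J) * Ji := by rw [mul_assoc]
      _ = J * Xi * Ji := by rw [ha]
  rw [hb] at h2
  have e : Ji * Jt = Xi * (Ji * Jt * X) := by
    calc Ji * Jt = Ji * (J * Xi * Ji * Jt * X) := by rw [h2]
      _ = (Ji * J) * (Xi * (Ji * Jt * X)) := by simp only [mul_assoc]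
      _ = Xi * (Ji * Jt * X) := by rw [hJ1, one_mul]
  calc Ji * Jt * X = (X * Xi) * (Ji * Jt * X) := by rw [hXi, one_mul]
    _ = X * (Xi * (Ji * Jt * X)) := by rw [mul_assoc]
    _ = X * (Ji * Jt) := by rw [← e]

/-- FR2A. -/
theorem fr2a [Fintype F] (q : ℕ) (hF : Fintype.card F = q ^ 2) (hn : Odd n) (P₀ : Subgroup (GL (Fin n) F))
    (hP : ActsAbsolutelyIrreducibly (matrixSet P₀)) (hPU : P₀ ≤ GU n F q) (F₁ : Subfield F)
    (hc : Fintype.card F = Nat.card F₁ ^ 2) (B : GL (Fin n) F)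
    (hB : ∀ s ∈ matrixSet P₀, ∀ i j,
      ((B : Matrix (Fin n) (Fin n) F) * s * ((B⁻¹ : GL (Fin n) F) : Matrix (Fin n) (Fin n) F)) i j ∈ F₁) :
    (gram q B⁻¹)ᵀ = gram q B⁻¹ ∧ IsFormRationalStructure (hermForm n F q) F₁ 1 B⁻¹ := by
  have hq := fr2_card hF F₁ hc
  have hJunit := gram_isUnit q hF B⁻¹
  set J := gram q B⁻¹ with hJ
  obtain ⟨Ji, hJ1, hJ2⟩ : ∃ Ji : Matrix (Fin n) (Fin n) F, Ji * J = 1 ∧ J * Ji = 1 := by
    obtain ⟨Ju, hJu⟩ := hJunit
    exact ⟨(↑(Ju⁻¹) : Matrix (Fin n) (Fin n) F), by rw [← hJu]; exact Ju.inv_mul,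
      by rw [← hJu]; exact Ju.mul_inv⟩
  obtain ⟨c, hcM⟩ := scalar_of_commutes_conj P₀ hP B (Ji * Jᵀ) (by
    intro x hx
    have h1 := fr2_inv q hF P₀ hPU F₁ hc B hB x hx
    rw [← hJ] at h1
    have h2 : ((B * x * B⁻¹ : GL (Fin n) F) : Matrix (Fin n) (Fin n) F)ᵀ * Jᵀ *
        ((B * x * B⁻¹ : GL (Fin n) F) : Matrix (Fin n) (Fin n) F) = Jᵀ := by
      have := congrArg Matrix.transpose h1
      rw [Matrix.transpose_mul, Matrix.transpose_mul, Matrix.transpose_transpose, ← mul_assoc] at this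
      exact this
    exact fr2_alg _ _ (((B * x * B⁻¹)⁻¹ : GL (Fin n) F) : Matrix (Fin n) (Fin n) F) J Jᵀ Ji h1 h2
      (B * x * B⁻¹).mul_inv hJ1 hJ2)
  have hJT : Jᵀ = c • J := by
    calc Jᵀ = (J * Ji) * Jᵀ := by rw [hJ2, one_mul]
      _ = J * (Ji * Jᵀ) := by rw [mul_assoc]
      _ = c • J := by rw [hcM, Matrix.mul_smul, mul_one]
  obtain ⟨m, hm⟩ := hn
  have hn0 : 0 < n := by omega
  have hcc : c * c = 1 := by
    have h1 : J = (c * c) • J := by
      calc J = (Jᵀ)ᵀ := (Matrix.transpose_transpose J).symm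
        _ = (c • J)ᵀ := by rw [hJT]
        _ = c • Jᵀ := Matrix.transpose_smul c J
        _ = (c * c) • J := by rw [hJT, smul_smul]
    have h2 : (1 : Matrix (Fin n) (Fin n) F) = (c * c) • 1 := by
      calc (1 : Matrix (Fin n) (Fin n) F) = J * Ji := hJ2.symm
        _ = ((c * c) • J) * Ji := by rw [← h1]
        _ = (c * c) • 1 := by rw [Matrix.smul_mul, hJ2]
    have h3 := congrFun (congrFun h2 ⟨0, hn0⟩) ⟨0, hn0⟩
    simpa using h3.symm
  have hdet : c ^ n = 1 := by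
    have h1 : J.det = c ^ n * J.det := by
      calc J.det = (Jᵀ).det := (Matrix.det_transpose J).symm
        _ = (c • J).det := by rw [hJT]
        _ = c ^ n * J.det := by rw [Matrix.det_smul, Fintype.card_fin]
    have h2 : J.det ≠ 0 := by
      have : IsUnit J.det := (Matrix.isUnit_iff_isUnit_det J).mp hJunit
      exact this.ne_zero
    have h3 : (c ^ n - 1) * J.det = 0 := by rw [sub_mul, one_mul, ← h1, sub_self]
    rcases mul_eq_zero.mp h3 with h | h
    · exact sub_eq_zero.mp h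
    · exact absurd h h2
  have hc1 : c = 1 := by
    rw [hm, pow_succ, pow_mul, sq, hcc, one_pow, one_mul] at hdet
    exact hdet
  have hsym : Jᵀ = J := by rw [hJT, hc1, one_smul]
  refine ⟨hsym, ?_⟩
  have hent : ∀ i j, J i j ∈ F₁ := by
    intro i j
    apply fr2_mem_of_pow F₁ hq
    have h1 := gram_herm q hF B⁻¹
    rw [← hJ, hsym] at h1
    have := congrFun (congrFun h1 i) j
    rw [Matrix.map_apply] at this
    exact this.symm
  intro u v hu hv
  rw [one_mul, gram_apply q hF, ← hJ]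
  unfold dotProduct Matrix.mulVec dotProduct
  apply Subfield.sum_mem
  intro i _
  apply F₁.mul_mem (hu i)
  apply Subfield.sum_mem
  intro j _
  exact F₁.mul_mem (hent i j) (F₁.pow_mem (hv j) q)

end Cfsg.Agent.Lib.Helper32.AschU
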