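import Cfsg.Agent.Lib.Helper32.AschU.Defs
import Cfsg.Agent.Lib.Helper32.AschU.GRAM
import Cfsg.Agent.Lib.Helper32.AschU.FR2A
import Cfsg.Agent.Lib.Helper17.Herm

set_option autoImplicit false

namespace Cfsg.Agent.Lib.Helper32.AschU

open Cfsg Cfsg.Geo Cfsg.Agent.Lib.Helper77.Asch
open scoped MatrixGroups Matrix

variable {n : ℕ} {F : Type*} [Field F]

/-- the bilinear form of a matrix -/
def fr2bB (J : Matrix (Fin n) (Fin n) F) (u v : Fin n → F) : F := u ⬝ᵥ (J *ᵥ v)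

theorem fr2b_bilin (J : Matrix (Fin n) (Fin n) F) : IsBilinearForm (fr2bB J) where
  add_left x y v := by simp [fr2bB, add_dotProduct]
  smul_left c x v := by simp [fr2bB, smul_dotProduct]
  add_right v x y := by simp [fr2bB, Matrix.mulVec_add, dotProduct_add]
  smul_right c v x := by simp [fr2bB, Matrix.mulVec_smul, dotProduct_smul]

theorem fr2b_adj (X : Matrix (Fin n) (Fin n) F) (u w : Fin n → F) :
    (X *ᵥ u) ⬝ᵥ w = u ⬝ᵥ (Xᵀ *ᵥ w) := by
  rw [dotProduct_comm, Matrix.dotProduct_mulVec, ← Matrix.mulVec_transpose, dotProduct_comm]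

theorem fr2b_symm {J : Matrix (Fin n) (Fin n) F} (hJ : Jᵀ = J) (u v : Fin n → F) :
    fr2bB J u v = fr2bB J v u := by
  unfold fr2bB
  rw [dotProduct_comm, fr2b_adj, hJ]

theorem fr2b_inv {J X : Matrix (Fin n) (Fin n) F} (h : Xᵀ * J * X = J) (u v : Fin n → F) :
    fr2bB J (X *ᵥ u) (X *ᵥ v) = fr2bB J u v := by
  unfold fr2bB
  rw [fr2b_adj, Matrix.mulVec_mulVec, Matrix.mulVec_mulVec, h]

/-- the singular vectors form a subspace in characteristic 2 -/
def fr2bW [CharP F 2] (J : Matrix (Fin n) (Fin n) F) (hJ : Jᵀ = J) : Submodule F (Fin n → F) where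
  carrier := {v | fr2bB J v v = 0}
  zero_mem' := by simp [fr2bB]
  add_mem' := by
    intro a b ha hb
    have ha' : fr2bB J a a = 0 := ha
    have hb' : fr2bB J b b = 0 := hb
    change fr2bB J (a + b) (a + b) = 0
    rw [(fr2b_bilin J).add_left, (fr2b_bilin J).add_right, (fr2b_bilin J).add_right, ha', hb',
      fr2b_symm hJ b a, zero_add, add_zero, CharTwo.add_self_eq_zero]
  smul_mem' := by
    intro c a ha
    have ha' : fr2bB J a a = 0 := ha
    change fr2bB J (c • a) (c • a) = 0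
    rw [(fr2b_bilin J).smul_left, (fr2b_bilin J).smul_right, ha', mul_zero, mul_zero]

/-- FR2B. -/
theorem fr2b [Fintype F] (q : ℕ) (hF : Fintype.card F = q ^ 2) (h2 : 2 ≤ n) (P₀ : Subgroup (GL (Fin n) F))
    (hP : ActsAbsolutelyIrreducibly (matrixSet P₀)) (hPU : P₀ ≤ GU n F q) (F₁ : Subfield F)
    (hc : Fintype.card F = Nat.card F₁ ^ 2) (B : GL (Fin n) F)
    (hB : ∀ s ∈ matrixSet P₀, ∀ i j,
      ((B : Matrix (Fin n) (Fin n) F) * s * ((B⁻¹ : GL (Fin n) F) : Matrix (Fin n) (Fin n) F)) i j ∈ F₁)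
    (hsym : (gram q B⁻¹)ᵀ = gram q B⁻¹) (hq : ¬ Odd q) :
    ∃ f : (Fin n → F) → (Fin n → F) → F, IsSymplecticForm f := by
  obtain ⟨p, k, hp, hchar, hqp⟩ := Cfsg.Agent.Lib.Helper17.exists_char_pow hF
  have hp2 : p = 2 := by
    rw [Nat.not_odd_iff_even, hqp] at hq
    exact (Nat.Prime.even_iff hp).mp (Nat.even_pow.mp hq).1
  subst hp2
  have hJunit := gram_isUnit q hF B⁻¹
  set J := gram q B⁻¹ with hJ
  obtain ⟨Ji, hJ1, -⟩ : ∃ Ji : Matrix (Fin n) (Fin n) F, Ji * J = 1 ∧ J * Ji = 1 := by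
    obtain ⟨Ju, hJu⟩ := hJunit
    exact ⟨(↑(Ju⁻¹) : Matrix (Fin n) (Fin n) F), by rw [← hJu]; exact Ju.inv_mul,
      by rw [← hJu]; exact Ju.mul_inv⟩
  have hBi1 : ((B⁻¹ : GL (Fin n) F) : Matrix (Fin n) (Fin n) F) * (B : Matrix (Fin n) (Fin n) F) = 1 :=
    B.inv_mul
  have hBi2 : (B : Matrix (Fin n) (Fin n) F) * ((B⁻¹ : GL (Fin n) F) : Matrix (Fin n) (Fin n) F) = 1 :=
    B.mul_inv
  -- a nonzero singular vector
  obtain ⟨v₀, hv₀, hv₀W⟩ : ∃ v₀ : Fin n → F, v₀ ≠ 0 ∧ v₀ ∈ fr2bW J hsym := by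
    let e0 : Fin n → F := Pi.single ⟨0, by omega⟩ 1
    let e1 : Fin n → F := Pi.single ⟨1, by omega⟩ 1
    by_cases ha : fr2bB J e0 e0 = 0
    · refine ⟨e0, ?_, ha⟩
      intro h
      have := congrFun h ⟨0, by omega⟩
      simp [e0] at this
    · obtain ⟨c, hc'⟩ := FiniteField.isSquare_of_char_two (ringChar.eq F 2)
        (fr2bB J e1 e1 / fr2bB J e0 e0)
      refine ⟨c • e0 + e1, ?_, ?_⟩
      · intro h
        have := congrFun h ⟨1, by omega⟩
        simp [e0, e1] at this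
      · change fr2bB J (c • e0 + e1) (c • e0 + e1) = 0
        rw [(fr2b_bilin J).add_left, (fr2b_bilin J).add_right, (fr2b_bilin J).add_right,
          fr2b_symm hsym e1 (c • e0), (fr2b_bilin J).smul_left c e0 (c • e0),
          (fr2b_bilin J).smul_right c e0 e0]
        have e : c * (c * fr2bB J e0 e0) = fr2bB J e1 e1 := by
          rw [← mul_assoc, ← hc', div_mul_cancel₀ _ ha]
        rw [e]
        have h4 : ∀ x y : F, x + y + (y + x) = 0 := by
          intro x y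
          have : x + y + (y + x) = (x + y) + (x + y) := by ring
          rw [this, CharTwo.add_self_eq_zero]
        exact h4 _ _
  -- invariance
  have hirr := hP.1 ((fr2bW J hsym).comap (Matrix.toLin' (B : Matrix (Fin n) (Fin n) F))) (by
    rintro _ ⟨x, hx, rfl⟩
    rintro _ ⟨v, hv, rfl⟩
    have hv' : fr2bB J ((B : Matrix (Fin n) (Fin n) F) *ᵥ v) ((B : Matrix (Fin n) (Fin n) F) *ᵥ v) = 0 := by
      have hv2 : (B : Matrix (Fin n) (Fin n) F) *ᵥ v ∈ fr2bW J hsym := by simpa using hv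
      exact hv2
    have h1 := fr2_inv q hF P₀ hPU F₁ hc B hB x hx
    rw [← hJ] at h1
    have h3 : (B : Matrix (Fin n) (Fin n) F) *ᵥ ((x : Matrix (Fin n) (Fin n) F) *ᵥ v) =
        ((B * x * B⁻¹ : GL (Fin n) F) : Matrix (Fin n) (Fin n) F) *ᵥ
          ((B : Matrix (Fin n) (Fin n) F) *ᵥ v) := by
      rw [Matrix.mulVec_mulVec, Matrix.mulVec_mulVec]
      congr 1
      rw [Units.val_mul, Units.val_mul, mul_assoc, hBi1, mul_one]
    change fr2bB J _ _ = 0
    simp only [Matrix.toLin'_apply]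
    rw [h3, fr2b_inv h1, hv'])
  have htop : ∀ w : Fin n → F, fr2bB J w w = 0 := by
    rcases hirr with hbot | htop
    · exfalso
      have hmem : ((B⁻¹ : GL (Fin n) F) : Matrix (Fin n) (Fin n) F) *ᵥ v₀ ∈
          (fr2bW J hsym).comap (Matrix.toLin' (B : Matrix (Fin n) (Fin n) F)) := by
        rw [Submodule.mem_comap, Matrix.toLin'_apply, Matrix.mulVec_mulVec, hBi2, Matrix.one_mulVec]
        exact hv₀W
      rw [hbot, Submodule.mem_bot] at hmem
      apply hv₀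
      have := congrArg (fun z => (B : Matrix (Fin n) (Fin n) F) *ᵥ z) hmem
      simpa [Matrix.mulVec_mulVec, hBi2] using this
    · intro w
      have hmem : ((B⁻¹ : GL (Fin n) F) : Matrix (Fin n) (Fin n) F) *ᵥ w ∈
          (fr2bW J hsym).comap (Matrix.toLin' (B : Matrix (Fin n) (Fin n) F)) := by
        rw [htop]; trivial
      rw [Submodule.mem_comap, Matrix.toLin'_apply, Matrix.mulVec_mulVec, hBi2,
        Matrix.one_mulVec] at hmem
      exact hmem
  refine ⟨fr2bB J, fr2b_bilin J, ?_, htop, ?_⟩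
  · intro v w
    rw [fr2b_symm hsym v w, CharTwo.neg_eq]
  · intro v hv
    have hJv : J *ᵥ v ≠ 0 := by
      intro h
      apply hv
      have := congrArg (fun z => Ji *ᵥ z) h
      simpa [Matrix.mulVec_mulVec, hJ1] using this
    obtain ⟨i, hi⟩ := Function.ne_iff.mp hJv
    have hx : fr2bB J (Pi.single i 1) v ≠ 0 := by
      unfold fr2bB
      rw [single_one_dotProduct]
      exact hi
    exact ⟨⟨_, hx⟩, ⟨_, by rw [fr2b_symm hsym]; exact hx⟩⟩

end Cfsg.Agent.Lib.Helper32.AschU
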