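import Cfsg.Agent.Lib.Helper32.AschU.Defs
import Cfsg.Agent.Lib.Helper32.AschU.GRAM

set_option autoImplicit false

namespace Cfsg.Agent.Lib.Helper32.AschU

open Cfsg Cfsg.Geo Cfsg.Agent.Lib.Helper77.Asch
open scoped MatrixGroups Matrix

variable {n : ℕ} {F : Type*} [Field F]

theorem fro1_map_mul_left {F₁ : Subfield F} (φ : Module.Dual F₁ F) (X J : Matrix (Fin n) (Fin n) F)
    (hX : ∀ i j, X i j ∈ F₁) :
    (X * J).map (fun a => ((φ a : F₁) : F)) = X * J.map (fun a => ((φ a : F₁) : F)) := by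
  ext i j
  simp only [Matrix.map_apply, Matrix.mul_apply]
  rw [map_sum, AddSubmonoidClass.coe_finsetSum]
  refine Finset.sum_congr rfl (fun a _ => ?_)
  have h : X i a * J a j = (⟨X i a, hX i a⟩ : F₁) • J a j := rfl
  rw [h, map_smul, smul_eq_mul]
  rfl

theorem fro1_map_mul_right {F₁ : Subfield F} (φ : Module.Dual F₁ F) (J Y : Matrix (Fin n) (Fin n) F)
    (hY : ∀ i j, Y i j ∈ F₁) :
    (J * Y).map (fun a => ((φ a : F₁) : F)) = J.map (fun a => ((φ a : F₁) : F)) * Y := by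
  ext i j
  simp only [Matrix.map_apply, Matrix.mul_apply]
  rw [map_sum, AddSubmonoidClass.coe_finsetSum]
  refine Finset.sum_congr rfl (fun a _ => ?_)
  have h : J i a * Y a j = (⟨Y a j, hY a j⟩ : F₁) • J i a := by
    rw [mul_comm]; rfl
  rw [h, map_smul, smul_eq_mul, mul_comm]
  rfl

/-- FRO1 (no Hilbert 90). -/
theorem fro1 [Fintype F] (q : ℕ) (hF : Fintype.card F = q ^ 2) (hn : 0 < n) (P₀ : Subgroup (GL (Fin n) F))
    (hP : ActsAbsolutelyIrreducibly (matrixSet P₀)) (hPU : P₀ ≤ GU n F q) (F₁ : Subfield F) (B : GL (Fin n) F)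
    (hB : ∀ s ∈ matrixSet P₀, ∀ i j,
      ((B : Matrix (Fin n) (Fin n) F) * s * ((B⁻¹ : GL (Fin n) F) : Matrix (Fin n) (Fin n) F)) i j ∈ F₁) :
    ∃ d : F, d ≠ 0 ∧ ∀ i j, d * gram q B⁻¹ i j ∈ F₁ := by
  classical
  obtain ⟨J, hJ⟩ : ∃ J, J = gram q B⁻¹ := ⟨_, rfl⟩
  have hJu : IsUnit J := by rw [hJ]; exact gram_isUnit q hF _
  have hne : Nonempty (Fin n) := ⟨⟨0, hn⟩⟩
  have hJ0 : J ≠ 0 := hJu.ne_zero
  obtain ⟨i₀, j₀, hij⟩ : ∃ i₀ j₀, J i₀ j₀ ≠ 0 := by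
    by_contra hcon
    push Not at hcon
    exact hJ0 (by ext i j; exact hcon i j)
  obtain ⟨φ, hφ⟩ := Module.Projective.exists_dual_eq_one F₁ hij
  obtain ⟨J₁, hJ₁⟩ : ∃ J₁, J₁ = J.map (fun a => ((φ a : F₁) : F)) := ⟨_, rfl⟩
  have hJ₁0 : J₁ ≠ 0 := by
    intro h
    have h1 : J₁ i₀ j₀ = 0 := by rw [h]; rfl
    rw [hJ₁, Matrix.map_apply, hφ] at h1
    exact one_ne_zero h1
  -- the conjugated group
  have hx' : ∀ x ∈ P₀, ∀ i j, ((B * x * B⁻¹ : GL (Fin n) F) : Matrix (Fin n) (Fin n) F) i j ∈ F₁ := by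
    intro x hx i j
    exact hB _ ⟨x, hx, rfl⟩ i j
  have hinv : ∀ x ∈ P₀, ((B * x * B⁻¹ : GL (Fin n) F) : Matrix (Fin n) (Fin n) F)ᵀ * J *
      ((B * x * B⁻¹ : GL (Fin n) F) : Matrix (Fin n) (Fin n) F).map (· ^ q) = J := by
    intro x hx
    have := gram_inv q hF B⁻¹ x (hPU hx)
    rw [inv_inv] at this
    rw [hJ]; exact this
  have hinv₁ : ∀ x ∈ P₀, ((B * x * B⁻¹ : GL (Fin n) F) : Matrix (Fin n) (Fin n) F)ᵀ * J₁ *
      ((B * x * B⁻¹ : GL (Fin n) F) : Matrix (Fin n) (Fin n) F).map (· ^ q) = J₁ := by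
    intro x hx
    have h1 := congrArg (fun M : Matrix (Fin n) (Fin n) F => M.map (fun a => ((φ a : F₁) : F)))
      (hinv x hx)
    rw [fro1_map_mul_right φ _ _ (fun i j => by
      rw [Matrix.map_apply]; exact pow_mem (hx' x hx i j) q),
      fro1_map_mul_left φ _ _ (fun i j => by
      rw [Matrix.transpose_apply]; exact hx' x hx j i), ← hJ₁] at h1
    exact h1
  obtain ⟨Ju, hJuv⟩ := hJu
  -- `M = J⁻¹ J₁`
  obtain ⟨M, hM⟩ : ∃ M, M = ((Ju⁻¹ : (Matrix (Fin n) (Fin n) F)ˣ) : Matrix (Fin n) (Fin n) F) * J₁ :=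
    ⟨_, rfl⟩
  have hJM : J * M = J₁ := by
    rw [hM, ← hJuv, ← mul_assoc, Units.mul_inv, one_mul]
  have hcomm : ∀ x ∈ P₀, M * ((B * x * B⁻¹ : GL (Fin n) F) : Matrix (Fin n) (Fin n) F).map (· ^ q)
      = ((B * x * B⁻¹ : GL (Fin n) F) : Matrix (Fin n) (Fin n) F).map (· ^ q) * M := by
    intro x hx
    obtain ⟨X, hX⟩ : ∃ X, X = ((B * x * B⁻¹ : GL (Fin n) F) : Matrix (Fin n) (Fin n) F)ᵀ := ⟨_, rfl⟩
    obtain ⟨Y, hY⟩ : ∃ Y, Y = ((B * x * B⁻¹ : GL (Fin n) F) : Matrix (Fin n) (Fin n) F).map (· ^ q) :=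
      ⟨_, rfl⟩
    have e1 : X * J * Y = J := by rw [hX, hY]; exact hinv x hx
    have e2 : X * J₁ * Y = J₁ := by rw [hX, hY]; exact hinv₁ x hx
    rw [← hY]
    have hXJ : IsUnit (X * J) := by
      apply IsUnit.of_mul_eq_one (Y * ((Ju⁻¹ : (Matrix (Fin n) (Fin n) F)ˣ) :
        Matrix (Fin n) (Fin n) F))
      rw [← mul_assoc, e1, ← hJuv, Units.mul_inv]
    apply hXJ.mul_left_cancel
    calc X * J * (M * Y) = X * (J * M) * Y := by simp only [mul_assoc]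
      _ = J₁ := by rw [hJM, e2]
      _ = J * M := hJM.symm
      _ = X * J * Y * M := by rw [e1]
      _ = X * J * (Y * M) := by simp only [mul_assoc]
  have hcomm2 : ∀ x ∈ P₀, M.map (· ^ q) * ((B * x * B⁻¹ : GL (Fin n) F) : Matrix (Fin n) (Fin n) F)
      = ((B * x * B⁻¹ : GL (Fin n) F) : Matrix (Fin n) (Fin n) F) * M.map (· ^ q) := by
    intro x hx
    have h1 := congrArg (fun M : Matrix (Fin n) (Fin n) F => M.map (· ^ q)) (hcomm x hx)
    simp only at h1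
    rw [gram_map_mul q hF, gram_map_mul q hF, gram_map_map q hF] at h1
    exact h1
  obtain ⟨c, hc⟩ := scalar_of_commutes_conj P₀ hP B _ hcomm2
  have hMc : M = (c ^ q) • (1 : Matrix (Fin n) (Fin n) F) := by
    rw [← gram_map_map q hF M, hc]
    ext i j
    by_cases hij' : i = j
    · subst hij'
      simp
    · have hq : q ≠ 0 := by
        rintro rfl
        have : 1 < Fintype.card F := Fintype.one_lt_card
        rw [hF] at this
        simp at this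
      simp [hij', hq]
  have hJ₁c : J₁ = (c ^ q) • J := by
    rw [← hJM, hMc, Matrix.mul_smul, mul_one]
  refine ⟨c ^ q, ?_, ?_⟩
  · intro h0
    apply hJ₁0
    rw [hJ₁c, h0, zero_smul]
  · intro i j
    have h1 : c ^ q * gram q B⁻¹ i j = J₁ i j := by
      rw [hJ₁c, ← hJ]; rfl
    rw [h1, hJ₁, Matrix.map_apply]
    exact (φ (J i j)).2

end Cfsg.Agent.Lib.Helper32.AschU
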