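import Cfsg.Agent.Lib.Helper32.AschU.Defs

set_option autoImplicit false

namespace Cfsg.Agent.Lib.Helper32.AschU

open Cfsg Cfsg.Geo Cfsg.Agent.Lib.Helper77.Asch
open scoped MatrixGroups Matrix

variable {n : ℕ} {F : Type*} [Field F]

/-- SMA. c = 1. -/
theorem GU_le_sim (q : ℕ) : GU n F q ≤ similarityGroup (hermForm n F q) := by
  intro g hg
  refine ⟨1, fun u v => ?_⟩
  have := hg u v
  simpa using this

/-- SMA. g = c • 1: f (c u) (c v) = c * c^q * f u v. -/
theorem scalars_le_sim (q : ℕ) : scalars (Fin n) F ≤ similarityGroup (hermForm n F q) := by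
  intro g hg
  obtain ⟨c, hc⟩ := (mem_scalars_iff g).1 hg
  refine ⟨c * c ^ q, fun u v => ?_⟩
  rw [hc]
  simp only [Matrix.smul_mulVec, Matrix.one_mulVec, hermForm, Pi.smul_apply, smul_eq_mul, Units.val_mul,
    Units.val_pow_eq_pow_val, Finset.mul_sum]
  refine Finset.sum_congr rfl fun i _ => ?_
  ring

/-- SMA. matrixSet is monotone. -/
theorem irr_mono {H H' : Subgroup (GL (Fin n) F)} (h : H ≤ H') (hH : ActsIrreducibly (matrixSet H)) :
    ActsIrreducibly (matrixSet H') := by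
  intro W hW
  refine hH W fun s hs => hW s ?_
  obtain ⟨g, hg, rfl⟩ := hs
  exact ⟨g, h hg, rfl⟩

/-- SMA. span {e_0} is invariant under scalars, ≠ ⊥, ≠ ⊤ (finrank 1 < n). -/
theorem not_irr_of_le_scalars (h2 : 2 ≤ n) {H : Subgroup (GL (Fin n) F)} (h : H ≤ scalars (Fin n) F) :
    ¬ ActsIrreducibly (matrixSet H) := by
  intro hirr
  set e : Fin n → F := Pi.single ⟨0, by omega⟩ 1 with he
  have hne : e ≠ 0 := by
    intro h0
    have := congrFun h0 ⟨0, by omega⟩
    simp [he] at this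
  have hinv : ∀ s ∈ matrixSet H, (Submodule.span F {e}).map (Matrix.toLin' s) ≤ Submodule.span F {e} := by
    rintro _ ⟨g, hg, rfl⟩
    obtain ⟨c, hc⟩ := (mem_scalars_iff g).1 (h hg)
    rw [Submodule.map_le_iff_le_comap]
    intro v hv
    rw [Submodule.mem_comap, Matrix.toLin'_apply]
    show (g : Matrix (Fin n) (Fin n) F) *ᵥ v ∈ _
    rw [hc, Matrix.smul_mulVec, Matrix.one_mulVec]
    exact Submodule.smul_mem _ _ hv
  rcases hirr (Submodule.span F {e}) hinv with h' | h'
  · rw [Submodule.span_singleton_eq_bot] at h'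
    exact hne h'
  · have h1 : Module.finrank F (Submodule.span F {e}) = 1 := finrank_span_singleton hne
    rw [h', finrank_top, Module.finrank_fin_fun] at h1
    omega

/-- SMA. -/
theorem scalars_central : ∀ z ∈ scalars (Fin n) F, ∀ g : GL (Fin n) F, g * z = z * g := by
  intro z hz g
  obtain ⟨c, hc⟩ := (mem_scalars_iff z).1 hz
  apply Units.ext
  rw [Units.val_mul, Units.val_mul, hc]
  simp

/-- SMA. f e₀ e₀ = 1 ≠ 0. -/
theorem totSing_ne_top (q : ℕ) (hn : 0 < n) (W : Submodule F (Fin n → F))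
    (hW : IsTotallySingularFor (hermForm n F q) W) : W ≠ ⊤ := by
  rintro rfl
  have := hW (Pi.single ⟨0, hn⟩ 1) trivial (Pi.single ⟨0, hn⟩ 1) trivial
  rw [hermForm, Finset.sum_eq_single (⟨0, hn⟩ : Fin n)] at this
  · simp at this
  · intro b _ hb
    simp [Pi.single_apply, hb]
  · simp

end Cfsg.Agent.Lib.Helper32.AschU
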