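import Cfsg.Agent.Lib.Helper32.AschU.Defs
import Cfsg.Agent.Lib.Helper32.AschU.GRAM
import Cfsg.Agent.Lib.Helper32.AschU.SMA
import Cfsg.Agent.Lib.Helper17.UnitTransv
import Cfsg.Agent.Lib.Helper17.UnitCoord

set_option autoImplicit false

namespace Cfsg.Agent.Lib.Helper32.AschU

open Cfsg Cfsg.Geo Cfsg.Agent.Lib.Helper77.Asch
open scoped MatrixGroups Matrix

variable {n : ℕ} {F : Type*} [Field F]

open Cfsg.Agent.Lib.Helper17 in
/-- a subfield of odd index is not fixed by `a ↦ a ^ q`. -/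
theorem fro2_theta [Fintype F] (q : ℕ) (hF : Fintype.card F = q ^ 2) (F₁ : Subfield F) (r : ℕ)
    (hodd : Odd r) (hc : Fintype.card F = Nat.card F₁ ^ r) : ∃ θ ∈ F₁, θ ^ q ≠ θ := by
  classical
  haveI : Fintype F₁ := Fintype.ofFinite _
  obtain ⟨t, rfl⟩ := hodd
  set k := Nat.card F₁ with hk
  have hkc : Fintype.card F₁ = k := by rw [hk, Nat.card_eq_fintype_card]
  have h1 : k * (k ^ t) ^ 2 = q ^ 2 := by rw [← hF, hc]; ring
  have hdvd : k ^ t ∣ q := by
    have : (k ^ t) ^ 2 ∣ q ^ 2 := ⟨k, by rw [← h1]; ring⟩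
    exact (Nat.pow_dvd_pow_iff (by norm_num)).1 this
  obtain ⟨e, he⟩ := hdvd
  have hkpos : 0 < k ^ t := by
    have : 0 < k := by rw [← hkc]; exact Fintype.card_pos
    positivity
  have hke : k = e ^ 2 := by
    rw [he] at h1
    have : (k ^ t) ^ 2 * k = (k ^ t) ^ 2 * e ^ 2 := by rw [← mul_pow]; linarith
    exact Nat.eq_of_mul_eq_mul_left (by positivity) this
  have hF1 : Fintype.card F₁ = e ^ 2 := by rw [hkc, hke]
  have hne := frobQ_ne_id hF1
  obtain ⟨θ, hθ⟩ : ∃ θ : F₁, frobQ hF1 θ ≠ θ := by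
    by_contra hcon
    push Not at hcon
    exact hne (RingHom.ext hcon)
  rw [frobQ_apply] at hθ
  refine ⟨θ, θ.2, ?_⟩
  have hpk : ∀ j : ℕ, θ ^ (k ^ j) = θ := by
    intro j
    induction j with
    | zero => simp
    | succ j ih => rw [pow_succ, pow_mul, ih, ← hkc, FiniteField.pow_card]
  intro h
  apply hθ
  apply Subtype.ext
  have e1 : ((θ ^ e : F₁) : F) = (θ : F) ^ q := by
    rw [he, pow_mul]
    have := congrArg (fun x : F₁ => (x : F)) (hpk t)
    push_cast at this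
    rw [this]
    push_cast
    rfl
  rw [e1, h]

open Cfsg.Agent.Lib.Helper17 in
/-- FRO2 (no Hilbert 90). -/
theorem fro2 [Fintype F] (q : ℕ) (hF : Fintype.card F = q ^ 2) (hn : 0 < n) (F₁ : Subfield F) (r : ℕ)
    (hodd : Odd r) (hc : Fintype.card F = Nat.card F₁ ^ r) (C : GL (Fin n) F) (d : F) (hd : d ≠ 0)
    (h : ∀ i j, d * gram q C i j ∈ F₁) :
    ∃ P : GL (Fin n) F, IsFormRationalStructure (hermForm n F q) F₁ 1 P ∧
      subfieldSubgroup F₁ P = subfieldSubgroup F₁ C := by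
  classical
  set J := gram q C with hJ
  have hJh : ∀ i j, J j i = (J i j) ^ q := by
    intro i j
    exact congrFun (congrFun (gram_herm q hF C) i) j
  have hJh' : ∀ i j, (J j i) ^ q = J i j := by
    intro i j
    rw [hJh i j, pow_q_pow_q hF]
  have hconj : ∀ d : F, (∀ i j, d * J i j ∈ F₁) → ∀ i j, d ^ q * J i j ∈ F₁ := by
    intro d h i j
    have := pow_mem (h j i) q
    rwa [mul_pow, hJh'] at this
  obtain ⟨d', hd'0, hd'q, hd'⟩ : ∃ d' : F, d' ≠ 0 ∧ d' ^ q = d' ∧ ∀ i j, d' * J i j ∈ F₁ := by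
    have hgood : ∀ d : F, (∀ i j, d * J i j ∈ F₁) → d + d ^ q ≠ 0 →
        ∃ d' : F, d' ≠ 0 ∧ d' ^ q = d' ∧ ∀ i j, d' * J i j ∈ F₁ := by
      intro d h hne
      refine ⟨d + d ^ q, hne, by rw [add_pow_q hF, pow_q_pow_q hF, add_comm], fun i j => ?_⟩
      rw [add_mul]
      exact add_mem (h i j) (hconj d h i j)
    by_cases h0 : d + d ^ q = 0
    · obtain ⟨θ, hθ1, hθ⟩ := fro2_theta q hF F₁ r hodd hc
      apply hgood (θ * d) (fun i j => by rw [mul_assoc]; exact mul_mem hθ1 (h i j))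
      have hdq : d ^ q = -d := by linear_combination h0
      rw [mul_pow, hdq]
      intro h1
      have : (θ - θ ^ q) * d = 0 := by linear_combination h1
      rcases mul_eq_zero.1 this with h2 | h2
      · exact hθ (sub_eq_zero.1 h2).symm
      · exact hd h2
    · exact hgood d h h0
  obtain ⟨lam, hlam⟩ := exists_norm_eq hF d' hd'0 hd'q
  have hlam0 : lam ≠ 0 := by
    rintro rfl
    rw [zero_pow (by omega)] at hlam
    exact hd'0 hlam.symm
  set L : Fˣ := Units.mk0 lam hlam0 with hL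
  refine ⟨sc L * C, ?_, ?_⟩
  · intro u v hu hv
    have e1 : ∀ w : Fin n → F, ((sc L * C : GL (Fin n) F) : Matrix (Fin n) (Fin n) F) *ᵥ w =
        lam • ((C : Matrix (Fin n) (Fin n) F) *ᵥ w) := by
      intro w
      rw [Units.val_mul, ← Matrix.mulVec_mulVec]
      show (Matrix.scalar (Fin n) lam) *ᵥ _ = _
      rw [Matrix.scalar_apply, ← Matrix.smul_one_eq_diagonal, Matrix.smul_mulVec, Matrix.one_mulVec]
    rw [e1, e1, hermForm_smul_left, hermForm_smul_right, gram_apply q hF, one_mul]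
    have e2 : lam * (lam ^ q * (u ⬝ᵥ (gram q C *ᵥ fun j => v j ^ q))) =
        ∑ i, u i * ∑ j, (d' * J i j) * v j ^ q := by
      rw [← mul_assoc, ← pow_succ', hlam]
      simp only [dotProduct, Matrix.mulVec, Finset.mul_sum]
      apply Finset.sum_congr rfl
      intro i _
      apply Finset.sum_congr rfl
      intro j _
      ring
    rw [e2]
    exact sum_mem fun i _ => mul_mem (hu i) (sum_mem fun j _ => mul_mem (hd' i j) (pow_mem (hv j) q))
  · have hcen : MulAut.conj (sc L : GL (Fin n) F) = 1 := by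
      refine MulEquiv.ext fun g => ?_
      rw [MulAut.conj_apply, ← scalars_central (sc L) ⟨L, rfl⟩ g, mul_inv_cancel_right]
      rfl
    have : MulAut.conj (sc L * C) = MulAut.conj C := by
      rw [map_mul, hcen, one_mul]
    rw [subfieldSubgroup, subfieldSubgroup, this]

end Cfsg.Agent.Lib.Helper32.AschU
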