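import Cfsg.Agent.Lib.Helper32.AschU.Defs
import Cfsg.Agent.Lib.Helper17.UnitTransv

set_option autoImplicit false

namespace Cfsg.Agent.Lib.Helper32.AschU

open Cfsg Cfsg.Geo Cfsg.Agent.Lib.Helper77.Asch Cfsg.Agent.Lib.Helper17
open scoped MatrixGroups Matrix

variable {n : ℕ} {F : Type*} [Field F]

/-- TVE. -/
theorem exists_tv [Fintype F] (q : ℕ) (hF : Fintype.card F = q ^ 2) (u : Fin n → F)
    (hu : hermForm n F q u u = 0) (a : F) (ha : a ^ q = -a) :
    ∃ g : GL (Fin n) F, g ∈ SUg n F q ∧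
      ∀ v, (g : Matrix (Fin n) (Fin n) F) *ᵥ v = v + (a * hermForm n F q v u) • u := by
  have hdet : (Cfsg.unitaryTransvection n q u a).det = 1 := by
    rw [unitaryTransvection_det, hu, mul_zero, add_zero]
  set g : GL (Fin n) F := Matrix.GeneralLinearGroup.mkOfDetNeZero (Cfsg.unitaryTransvection n q u a)
    (by rw [hdet]; exact one_ne_zero) with hg
  have hgc : (g : Matrix (Fin n) (Fin n) F) = Cfsg.unitaryTransvection n q u a := rfl
  refine ⟨g, ⟨?_, ?_⟩, fun v => by rw [hgc, unitaryTransvection_mulVec]⟩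
  · intro x y
    show hermForm n F q ((g : Matrix (Fin n) (Fin n) F) *ᵥ x) ((g : Matrix (Fin n) (Fin n) F) *ᵥ y) = _
    rw [hgc, unitaryTransvection_mulVec, unitaryTransvection_mulVec]
    simp only [hermForm_add_left, hermForm_add_right hF, hermForm_smul_left, hermForm_smul_right, hu, mul_pow,
      hermForm_conj hF, ha]
    ring
  · show Matrix.GeneralLinearGroup.det g = 1
    apply Units.ext
    show (g : Matrix (Fin n) (Fin n) F).det = 1
    rw [hgc, hdet]

theorem exists_pow_q_ne [Fintype F] (q : ℕ) (hF : Fintype.card F = q ^ 2) : ∃ e : F, e ^ q ≠ e := by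
  classical
  by_contra hcon
  push Not at hcon
  have hq := two_le_of_card_sq hF
  have hne : (Polynomial.X ^ q - Polynomial.X : Polynomial F) ≠ 0 := FiniteField.X_pow_card_sub_X_ne_zero F (by omega)
  have hle : Fintype.card F ≤ q := by
    have h1 : (Finset.univ : Finset F) ⊆ (Polynomial.X ^ q - Polynomial.X : Polynomial F).roots.toFinset := by
      intro x _
      rw [Multiset.mem_toFinset, Polynomial.mem_roots hne]
      simp [hcon x]
    calc Fintype.card F = (Finset.univ : Finset F).card := rfl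
      _ ≤ _ := Finset.card_le_card h1
      _ ≤ Multiset.card (Polynomial.X ^ q - Polynomial.X : Polynomial F).roots := Multiset.toFinset_card_le _
      _ ≤ (Polynomial.X ^ q - Polynomial.X : Polynomial F).natDegree := Polynomial.card_roots' _
      _ = q := FiniteField.X_pow_card_sub_X_natDegree_eq F (by omega)
  rw [hF] at hle
  nlinarith

/-- TVE.  a := e - e^q with e^q ≠ e. -/
theorem exists_skew [Fintype F] (q : ℕ) (hF : Fintype.card F = q ^ 2) : ∃ a : F, a ≠ 0 ∧ a ^ q = -a := by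
  obtain ⟨e, he⟩ := exists_pow_q_ne q hF
  refine ⟨e - e ^ q, fun h => he (sub_eq_zero.1 h).symm, ?_⟩
  rw [sub_pow_q hF, pow_q_pow_q hF]
  ring

theorem herm_nondeg (q : ℕ) (hq : q ≠ 0) (u : Fin n → F) (hu0 : u ≠ 0) : ∃ v, hermForm n F q v u ≠ 0 := by
  obtain ⟨i, hi⟩ := Function.ne_iff.1 hu0
  refine ⟨Pi.single i 1, ?_⟩
  rw [hermForm_single_left]
  exact pow_ne_zero _ hi

/-- TVE. -/
theorem isTv_of_tv [Fintype F] (q : ℕ) (hF : Fintype.card F = q ^ 2) (u : Fin n → F) (hu0 : u ≠ 0)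
    (hu : hermForm n F q u u = 0) (a : F) (ha0 : a ≠ 0) (g : GL (Fin n) F)
    (hg : ∀ v, (g : Matrix (Fin n) (Fin n) F) *ᵥ v = v + (a * hermForm n F q v u) • u) : IsTv g := by
  have hq := two_le_of_card_sq hF
  refine ⟨?_, u, ⟨⟨fun v => a * hermForm n F q v u, fun x y => by rw [hermForm_add_left]; ring⟩,
    fun c x => by simp only [hermForm_smul_left, RingHom.id_apply, smul_eq_mul]; ring⟩, ?_, hg⟩
  · rintro rfl
    obtain ⟨v, hv⟩ := herm_nondeg q (by omega) u hu0
    have h := hg v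
    rw [Units.val_one, Matrix.one_mulVec] at h
    have h' : (a * hermForm n F q v u) • u = 0 := by
      have := h.symm
      simpa using this
    rcases smul_eq_zero.1 h' with h'' | h''
    · exact (mul_ne_zero ha0 hv) h''
    · exact hu0 h''
  · show a * hermForm n F q u u = 0
    rw [hu, mul_zero]

/-- TVE.  u = e_0 + c e_1 with c^(q+1) = -1. -/
theorem exists_isotropic [Fintype F] (q : ℕ) (hF : Fintype.card F = q ^ 2) (h2 : 2 ≤ n) :
    ∃ u : Fin n → F, u ≠ 0 ∧ hermForm n F q u u = 0 := by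
  have hq := two_le_of_card_sq hF
  obtain ⟨c, hc⟩ := exists_norm_eq hF (-1 : F) (neg_ne_zero.2 one_ne_zero) (by rw [neg_pow_q hF, one_pow])
  set i0 : Fin n := ⟨0, by omega⟩
  set i1 : Fin n := ⟨1, by omega⟩
  have h01 : i0 ≠ i1 := by
    intro h
    have := congrArg Fin.val h
    simp [i0, i1] at this
  refine ⟨Pi.single i0 1 + c • Pi.single i1 1, ?_, ?_⟩
  · intro h
    have := congrFun h i0
    simp [Pi.single_apply, h01] at this
  · simp only [hermForm_add_left, hermForm_smul_left, hermForm_single_left, Pi.add_apply, Pi.smul_apply,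
      Pi.single_apply, smul_eq_mul]
    simp only [h01, h01.symm, if_true, if_false, mul_zero, add_zero, mul_one, zero_add, one_pow]
    rw [← pow_succ'] 
    rw [hc]
    ring

/-- TVE. -/
theorem exists_isTv [Fintype F] (q : ℕ) (hF : Fintype.card F = q ^ 2) (h2 : 2 ≤ n) :
    ∃ τ : GL (Fin n) F, τ ∈ SUg n F q ∧ IsTv τ := by
  obtain ⟨u, hu0, hu⟩ := exists_isotropic (n := n) q hF h2
  obtain ⟨a, ha0, ha⟩ := exists_skew q hF
  obtain ⟨g, hg, hgv⟩ := exists_tv q hF u hu a ha
  exact ⟨g, hg, isTv_of_tv q hF u hu0 hu a ha0 g hgv⟩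

end Cfsg.Agent.Lib.Helper32.AschU
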