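import Cfsg.Agent.Lib.Helper32.AschU.Defs
import Cfsg.Agent.Lib.Helper32.AschU.TVE
import Cfsg.Agent.Lib.Helper17.Herm
import Cfsg.Agent.Lib.Helper17.UnitTransv

set_option autoImplicit false

namespace Cfsg.Agent.Lib.Helper32.AschU

open Cfsg Cfsg.Geo Cfsg.Agent.Lib.Helper77.Asch
open scoped MatrixGroups Matrix

variable {n : ℕ} {F : Type*} [Field F]

/-- An element of norm one different from one. -/
theorem pu1_exists_z [Fintype F] (q : ℕ) (hF : Fintype.card F = q ^ 2) : ∃ z : F, z ≠ 1 ∧ z ^ (q + 1) = 1 := by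
  classical
  have hq2 : 2 ≤ q := Helper17.two_le_of_card_sq hF
  obtain ⟨g, hg⟩ := IsCyclic.exists_generator (α := Fˣ)
  have hord : orderOf g = q ^ 2 - 1 := by
    rw [orderOf_eq_card_of_forall_mem_zpowers hg, Nat.card_eq_fintype_card, Fintype.card_units, hF]
  have hgq : g ^ (q ^ 2 - 1) = 1 := by rw [← hord]; exact pow_orderOf_eq_one g
  have hfac : q ^ 2 - 1 = (q - 1) * (q + 1) := by
    have : 1 ≤ q ^ 2 := Nat.one_le_pow _ _ (by omega)
    zify [this, (by omega : 1 ≤ q)]; ring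
  refine ⟨((g ^ (q - 1) : Fˣ) : F), ?_, ?_⟩
  · intro h
    have h1 : g ^ (q - 1) = 1 := by ext; simpa using h
    have h2 := orderOf_dvd_of_pow_eq_one h1
    rw [hord, hfac] at h2
    have h3 := Nat.le_of_dvd (by omega) h2
    have h4 : (q - 1) * 2 ≤ (q - 1) * (q + 1) := Nat.mul_le_mul_left _ (by omega)
    omega
  · rw [← Units.val_pow_eq_pow_val, ← pow_mul, ← hfac, hgq, Units.val_one]

/-- `e_i + d e_j` is isotropic if `d` has norm `-1`. -/
theorem pu1_iso (q : ℕ) (i j : Fin n) (d : F) (hij : i ≠ j) (hd : d ^ (q + 1) = -1) :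
    hermForm n F q (Pi.single i 1 + d • Pi.single j 1) (Pi.single i 1 + d • Pi.single j 1) = 0 := by
  rw [Helper17.hermForm_add_left, Helper17.hermForm_smul_left, Helper17.hermForm_single_left,
    Helper17.hermForm_single_left]
  simp only [Pi.add_apply, Pi.smul_apply, Pi.single_eq_same, smul_eq_mul, mul_one,
    Pi.single_eq_of_ne hij, Pi.single_eq_of_ne hij.symm, mul_zero, add_zero, zero_add, one_pow]
  rw [← pow_succ', hd]; ring

/-- The isotropic vectors span. -/
theorem pu1_span [Fintype F] (q : ℕ) (hF : Fintype.card F = q ^ 2) (h2 : 2 ≤ n) (S : Submodule F (Fin n → F))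
    (hS : ∀ u, hermForm n F q u u = 0 → u ∈ S) : S = ⊤ := by
  classical
  obtain ⟨c, hc⟩ := Helper17.exists_norm_eq hF (-1) (by simp) (by rw [Helper17.neg_pow_q hF, one_pow])
  have hc0 : c ≠ 0 := by
    rintro rfl
    rw [zero_pow (by omega)] at hc
    exact (by simp : (-1 : F) ≠ 0) hc.symm
  obtain ⟨z, hz1, hz⟩ := pu1_exists_z (F := F) q hF
  have he : ∀ k, (Pi.single k 1 : Fin n → F) ∈ S := by
    intro k
    obtain ⟨i, hi⟩ : ∃ i : Fin n, i ≠ k := by
      by_cases hk : k = ⟨0, by omega⟩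
      · exact ⟨⟨1, by omega⟩, by rw [hk]; simp [Fin.ext_iff]⟩
      · exact ⟨⟨0, by omega⟩, fun h => hk h.symm⟩
    have h1 := hS _ (pu1_iso q i k c hi hc)
    have h2 := hS _ (pu1_iso q i k (c * z) hi (by rw [mul_pow, hc, hz, mul_one]))
    have h3 := S.sub_mem h1 h2
    have h4 : ((Pi.single i 1 : Fin n → F) + c • Pi.single k 1) - (Pi.single i 1 + (c * z) • Pi.single k 1)
        = (c * (1 - z)) • Pi.single k 1 := by
      rw [add_sub_add_left_eq_sub, ← sub_smul]; congr 1; ring
    rw [h4] at h3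
    exact (S.smul_mem_iff (mul_ne_zero hc0 (sub_ne_zero.mpr hz1.symm))).mp h3
  rw [eq_top_iff, ← (Pi.basisFun F (Fin n)).span_eq, Submodule.span_le]
  rintro _ ⟨k, rfl⟩
  simpa using he k

/-- The right perpendicular space. -/
def pu1Perp [Fintype F] (q : ℕ) (hF : Fintype.card F = q ^ 2) (W : Submodule F (Fin n → F)) :
    Submodule F (Fin n → F) where
  carrier := {v | ∀ w ∈ W, hermForm n F q w v = 0}
  add_mem' := fun {a b} ha hb w hw => by rw [Helper17.hermForm_add_right hF, ha w hw, hb w hw, add_zero]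
  zero_mem' := fun w _ => by
    have := Helper17.hermForm_smul_right q n (0 : F) w 0
    rw [zero_smul, zero_pow (by have := Helper17.two_le_of_card_sq hF; omega), zero_mul] at this
    exact this
  smul_mem' := fun c a ha w hw => by rw [Helper17.hermForm_smul_right, ha w hw, mul_zero]

/-- PU1. -/
theorem not_le_subspace_U [Fintype F] (q : ℕ) (hF : Fintype.card F = q ^ 2) (h2 : 2 ≤ n)
    (W : Submodule F (Fin n → F)) (h0 : W ≠ ⊥) (h1 : W ≠ ⊤) : ¬ SUg n F q ≤ subspaceStabilizer W := by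
  intro hle
  have hq2 : 2 ≤ q := Helper17.two_le_of_card_sq hF
  obtain ⟨a, ha0, ha⟩ := exists_skew (F := F) q hF
  have hdich : ∀ u, hermForm n F q u u = 0 → u ∈ W ∨ u ∈ pu1Perp q hF W := by
    intro u hu
    by_contra hcon
    push Not at hcon
    obtain ⟨hu1, hu2⟩ := hcon
    have hu2' : ∃ w ∈ W, hermForm n F q w u ≠ 0 := by
      by_contra h
      push Not at h
      exact hu2 h
    obtain ⟨w, hw, hwu⟩ := hu2'
    obtain ⟨g, hgS, hg⟩ := exists_tv q hF u hu a ha
    have h3 : (g : Matrix (Fin n) (Fin n) F) *ᵥ w ∈ W := ((hle hgS) w).mp hw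
    rw [hg] at h3
    have h4 := (W.add_mem_iff_right hw).mp h3
    exact hu1 ((W.smul_mem_iff (mul_ne_zero ha0 hwu)).mp h4)
  have hall : (∀ u, hermForm n F q u u = 0 → u ∈ W) ∨ (∀ u, hermForm n F q u u = 0 → u ∈ pu1Perp q hF W) := by
    by_contra hcon
    push Not at hcon
    obtain ⟨⟨u2, hu2, hu2W⟩, ⟨u1, hu1, hu1P⟩⟩ := hcon
    have hu1W : u1 ∈ W := (hdich u1 hu1).resolve_right hu1P
    have hu2P : u2 ∈ pu1Perp q hF W := (hdich u2 hu2).resolve_left hu2W
    have h12 : hermForm n F q u1 u2 = 0 := hu2P u1 hu1W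
    have h21 : hermForm n F q u2 u1 = 0 := by
      rw [← Helper17.hermForm_conj hF, h12, zero_pow (by omega)]
    have hs : hermForm n F q (u1 + u2) (u1 + u2) = 0 := by
      rw [Helper17.hermForm_add_left, Helper17.hermForm_add_right hF, Helper17.hermForm_add_right hF,
        hu1, hu2, h12, h21]; ring
    rcases hdich _ hs with h | h
    · exact hu2W ((W.add_mem_iff_right hu1W).mp h)
    · exact hu1P (((pu1Perp q hF W).add_mem_iff_left hu2P).mp h)
  rcases hall with h | h
  · exact h1 (pu1_span q hF h2 W h)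
  · have htop := pu1_span q hF h2 _ h
    apply h0
    rw [eq_bot_iff]
    intro w hw
    rw [Submodule.mem_bot]
    funext i
    have h5 : (Pi.single i 1 : Fin n → F) ∈ pu1Perp q hF W := by rw [htop]; trivial
    have h6 := h5 w hw
    rw [Helper17.hermForm_single_right q n (by omega)] at h6
    exact h6

end Cfsg.Agent.Lib.Helper32.AschU
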