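import Cfsg.Agent.Lib.Helper32.AschU.Defs
import Cfsg.Agent.Lib.Helper32.AschU.TVE
import Cfsg.Agent.Lib.Helper17.Herm
import Cfsg.Agent.Lib.Helper17.UnitTransv

set_option autoImplicit false

namespace Cfsg.Agent.Lib.Helper32.AschU

open Cfsg Cfsg.Geo Cfsg.Agent.Lib.Helper77.Asch
open scoped MatrixGroups Matrix

variable {n : ℕ} {F : Type*} [Field F]

/-- A non-degenerate line contains a vector of any prescribed non-zero norm in the fixed field. -/
theorem pu2_vec [Fintype F] (q : ℕ) (hF : Fintype.card F = q ^ 2) (L : Submodule F (Fin n → F))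
    (h1 : Module.finrank F L = 1) (hnd : IsNondegenerateOn (hermForm n F q) L) (ε : F) (hε0 : ε ≠ 0)
    (hε : ε ^ q = ε) : ∃ w ∈ L, hermForm n F q w w = ε := by
  obtain ⟨v₀, hv0, hv⟩ := finrank_eq_one_iff'.mp h1
  have hv0' : (v₀ : Fin n → F) ≠ 0 := fun h => hv0 (Subtype.ext h)
  obtain ⟨⟨x, hxL, hx⟩, -⟩ := hnd v₀ v₀.2 hv0'
  obtain ⟨c, hc⟩ := hv ⟨x, hxL⟩
  have hc' : x = c • (v₀ : Fin n → F) := by
    have := congrArg Subtype.val hc
    simpa using this.symm
  have hc0 : hermForm n F q (v₀ : Fin n → F) v₀ ≠ 0 := by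
    intro h
    apply hx
    rw [hc', Helper17.hermForm_smul_left, h, mul_zero]
  have hcq : (hermForm n F q (v₀ : Fin n → F) v₀) ^ q = hermForm n F q (v₀ : Fin n → F) v₀ :=
    Helper17.hermForm_conj hF n _ _
  obtain ⟨lam, hlam⟩ := Helper17.exists_norm_eq hF (ε / hermForm n F q (v₀ : Fin n → F) v₀)
    (div_ne_zero hε0 hc0) (by rw [div_pow, hε, hcq])
  refine ⟨lam • (v₀ : Fin n → F), L.smul_mem _ v₀.2, ?_⟩
  rw [Helper17.hermForm_smul_left, Helper17.hermForm_smul_right, ← mul_assoc, ← pow_succ', hlam]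
  field_simp

/-- PU2. -/
theorem not_le_decomp_U [Fintype F] (q : ℕ) (hF : Fintype.card F = q ^ 2) (h4 : 4 ≤ n)
    (D : Fin n → Submodule F (Fin n → F)) (hD : IsNondegenerateMDecomposition (hermForm n F q) 1 D) :
    ¬ SUg n F q ≤ decompositionStabilizer D := by
  intro hle
  have hq2 : 2 ≤ q := Helper17.two_le_of_card_sq hF
  obtain ⟨a, ha0, ha⟩ := exists_skew (F := F) q hF
  have hone : (1 : F) ^ q = 1 := one_pow q
  have hneg : (-1 : F) ^ q = -1 := by rw [Helper17.neg_pow_q hF, one_pow]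
  set i0 : Fin n := ⟨0, by omega⟩ with hi0
  set i1 : Fin n := ⟨1, by omega⟩ with hi1
  set i2 : Fin n := ⟨2, by omega⟩ with hi2
  set i3 : Fin n := ⟨3, by omega⟩ with hi3
  obtain ⟨w0, hw0, e0⟩ := pu2_vec q hF (D i0) (hD.decomp.finrank_eq i0) (hD.nondegenerate i0) 1 one_ne_zero hone
  obtain ⟨w1, hw1, e1⟩ := pu2_vec q hF (D i1) (hD.decomp.finrank_eq i1) (hD.nondegenerate i1) (-1) (by simp) hneg
  obtain ⟨w2, hw2, e2⟩ := pu2_vec q hF (D i2) (hD.decomp.finrank_eq i2) (hD.nondegenerate i2) 1 one_ne_zero hone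
  obtain ⟨w3, hw3, e3⟩ := pu2_vec q hF (D i3) (hD.decomp.finrank_eq i3) (hD.nondegenerate i3) (-1) (by simp) hneg
  have h01 : hermForm n F q w0 w1 = 0 := hD.orthogonal i0 i1 (by simp [hi0, hi1, Fin.ext_iff]) w0 hw0 w1 hw1
  have h02 : hermForm n F q w0 w2 = 0 := hD.orthogonal i0 i2 (by simp [hi0, hi2, Fin.ext_iff]) w0 hw0 w2 hw2
  have h03 : hermForm n F q w0 w3 = 0 := hD.orthogonal i0 i3 (by simp [hi0, hi3, Fin.ext_iff]) w0 hw0 w3 hw3
  have h10 : hermForm n F q w1 w0 = 0 := hD.orthogonal i1 i0 (by simp [hi0, hi1, Fin.ext_iff]) w1 hw1 w0 hw0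
  have h12 : hermForm n F q w1 w2 = 0 := hD.orthogonal i1 i2 (by simp [hi1, hi2, Fin.ext_iff]) w1 hw1 w2 hw2
  have h13 : hermForm n F q w1 w3 = 0 := hD.orthogonal i1 i3 (by simp [hi1, hi3, Fin.ext_iff]) w1 hw1 w3 hw3
  have h20 : hermForm n F q w2 w0 = 0 := hD.orthogonal i2 i0 (by simp [hi0, hi2, Fin.ext_iff]) w2 hw2 w0 hw0
  have h21 : hermForm n F q w2 w1 = 0 := hD.orthogonal i2 i1 (by simp [hi1, hi2, Fin.ext_iff]) w2 hw2 w1 hw1
  have h23 : hermForm n F q w2 w3 = 0 := hD.orthogonal i2 i3 (by simp [hi2, hi3, Fin.ext_iff]) w2 hw2 w3 hw3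
  have h30 : hermForm n F q w3 w0 = 0 := hD.orthogonal i3 i0 (by simp [hi0, hi3, Fin.ext_iff]) w3 hw3 w0 hw0
  have h31 : hermForm n F q w3 w1 = 0 := hD.orthogonal i3 i1 (by simp [hi1, hi3, Fin.ext_iff]) w3 hw3 w1 hw1
  have h32 : hermForm n F q w3 w2 = 0 := hD.orthogonal i3 i2 (by simp [hi2, hi3, Fin.ext_iff]) w3 hw3 w2 hw2
  set u : Fin n → F := w0 + w1 + w2 + w3 with hu
  have huu : hermForm n F q u u = 0 := by
    simp only [hu, Helper17.hermForm_add_left, Helper17.hermForm_add_right hF, e0, e1, e2, e3, h01, h02, h03,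
      h10, h12, h13, h20, h21, h23, h30, h31, h32]
    ring
  have h0u : hermForm n F q w0 u = 1 := by
    simp only [hu, Helper17.hermForm_add_right hF, e0, h01, h02, h03]
    ring
  have hu1 : hermForm n F q u w1 = -1 := by
    simp only [hu, Helper17.hermForm_add_left, e1, h01, h21, h31]
    ring
  have hu2 : hermForm n F q u w2 = 1 := by
    simp only [hu, Helper17.hermForm_add_left, e2, h02, h12, h32]
    ring
  obtain ⟨g, hgS, hg⟩ := exists_tv q hF u huu a ha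
  obtain ⟨σ, hσ⟩ := hle hgS
  have hmem : (g : Matrix (Fin n) (Fin n) F) *ᵥ w0 ∈ D (σ i0) := by
    rw [← hσ i0]
    exact ⟨w0, hw0, by rw [Matrix.toLin'_apply]⟩
  rw [hg, h0u, mul_one] at hmem
  have hs1 : σ i0 = i1 := by
    by_contra hne
    have := hD.orthogonal (σ i0) i1 hne _ hmem w1 hw1
    rw [Helper17.hermForm_add_left, Helper17.hermForm_smul_left, h01, hu1] at this
    apply ha0
    linear_combination -this
  have hs2 : σ i0 = i2 := by
    by_contra hne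
    have := hD.orthogonal (σ i0) i2 hne _ hmem w2 hw2
    rw [Helper17.hermForm_add_left, Helper17.hermForm_smul_left, h02, hu2] at this
    apply ha0
    linear_combination this
  rw [hs1] at hs2
  simp [hi1, hi2, Fin.ext_iff] at hs2

end Cfsg.Agent.Lib.Helper32.AschU
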