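import Cfsg.Agent.Lib.Helper32.AschU.Defs

set_option autoImplicit false

namespace Cfsg.Agent.Lib.Helper32.AschU

open Cfsg Cfsg.Geo Cfsg.Agent.Lib.Helper77.Asch
open scoped MatrixGroups Matrix

variable {n : ℕ} {F : Type*} [Field F]

theorem tvs_pow (p : ℕ) [CharP F p] (τ : GL (Fin n) F) (hτ : IsTv τ) : τ ^ p = 1 := by
  obtain ⟨_, u, φ, hφu, hv⟩ := hτ
  set T : Matrix (Fin n) (Fin n) F := (τ : Matrix (Fin n) (Fin n) F) with hT
  set E : Matrix (Fin n) (Fin n) F := T - 1 with hE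
  have hEv : ∀ v, E *ᵥ v = φ v • u := by
    intro v
    rw [hE, Matrix.sub_mulVec, hv, Matrix.one_mulVec, add_sub_cancel_left]
  have hEE : E * E = 0 := by
    apply Matrix.toLin'.injective
    apply LinearMap.ext
    intro v
    rw [Matrix.toLin'_apply, ← Matrix.mulVec_mulVec, hEv v, Matrix.mulVec_smul, hEv u, hφu]
    simp
  have hTE : T = 1 + E := by rw [hE]; abel
  have hpow : ∀ k : ℕ, T ^ k = 1 + (k : F) • E := by
    intro k
    induction k with
    | zero => simp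
    | succ k ih =>
      rw [pow_succ, ih, hTE, add_mul, mul_add, mul_add, one_mul, one_mul, mul_one, smul_mul_assoc, hEE, smul_zero,
        add_zero, Nat.cast_succ, add_smul, one_smul]
      abel
  apply Units.ext
  rw [Units.val_pow_eq_pow_val, Units.val_one, ← hT, hpow, CharP.cast_eq_zero, zero_smul, add_zero]

/-- TVS. -/
theorem tv_rational [Fintype F] (F₀ : Subfield F) (P : GL (Fin n) F) (hn : 0 < n) (τ : GL (Fin n) F) (hτ : IsTv τ)
    (hmem : τ ∈ subfieldSubgroup F₀ P) :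
    ∀ i j, (((P⁻¹ * τ * P : GL (Fin n) F)) : Matrix (Fin n) (Fin n) F) i j ∈ F₀ := by
  classical
  obtain ⟨p, hchar⟩ := CharP.exists F
  obtain ⟨e, hp, hcard⟩ := FiniteField.card F p
  obtain ⟨m, hm, hmτ⟩ := hmem
  have hmτ' : P * m * P⁻¹ = τ := hmτ
  have hm' : P⁻¹ * τ * P = m := by rw [← hmτ']; group
  rw [hm']
  obtain ⟨g₀, hg₀, z, hz, rfl⟩ := (Subgroup.mem_sup_of_normal_right).1 hm
  obtain ⟨g', rfl⟩ := hg₀
  obtain ⟨c, hc⟩ := (mem_scalars_iff z).1 hz
  have hzc : ∀ g : GL (Fin n) F, g * z = z * g := by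
    intro g
    apply Units.ext
    rw [Units.val_mul, Units.val_mul, hc]
    simp
  have hpow : (Matrix.GeneralLinearGroup.map (F₀.subtype : F₀ →+* F) g' * z) ^ p = 1 := by
    have h1 := tvs_pow p τ hτ
    rw [← hmτ', conj_pow] at h1
    have h2 : (Matrix.GeneralLinearGroup.map (F₀.subtype : F₀ →+* F) g' * z) ^ p = P⁻¹ * 1 * P := by
      rw [← h1]; group
    rw [h2]; group
  rw [(show Commute (Matrix.GeneralLinearGroup.map (F₀.subtype : F₀ →+* F) g') z from hzc _).mul_pow, ← map_pow] at hpow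
  have hentry := congrArg (fun g : GL (Fin n) F => (g : Matrix (Fin n) (Fin n) F) ⟨0, hn⟩ ⟨0, hn⟩) hpow
  simp only [Units.val_mul, Units.val_pow_eq_pow_val, hc, Units.val_one, Matrix.one_apply_eq] at hentry
  rw [smul_pow, one_pow, Matrix.mul_smul, mul_one, Matrix.smul_apply, smul_eq_mul] at hentry
  have hcp : ((c : F) ^ p) ∈ F₀ := by
    have h3 : ((Matrix.GeneralLinearGroup.map (F₀.subtype : F₀ →+* F) (g' ^ p) : GL (Fin n) F) :
        Matrix (Fin n) (Fin n) F) ⟨0, hn⟩ ⟨0, hn⟩ ∈ F₀ := by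
      show (F₀.subtype (((g' ^ p : GL (Fin n) F₀) : Matrix (Fin n) (Fin n) F₀) ⟨0, hn⟩ ⟨0, hn⟩)) ∈ F₀
      exact Subtype.property _
    have h4 : ((c : F) ^ p) = (((Matrix.GeneralLinearGroup.map (F₀.subtype : F₀ →+* F) (g' ^ p) : GL (Fin n) F) :
        Matrix (Fin n) (Fin n) F) ⟨0, hn⟩ ⟨0, hn⟩)⁻¹ := eq_inv_of_mul_eq_one_left hentry
    rw [h4]
    exact F₀.inv_mem h3
  have hcF : (c : F) ∈ F₀ := by
    have h5 : (c : F) ^ (p ^ (e : ℕ)) = c := by rw [← hcard]; exact FiniteField.pow_card _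
    have h6 : p ^ (e : ℕ) = p * p ^ ((e : ℕ) - 1) := by
      rw [← pow_succ']
      congr 1
      have := e.pos
      omega
    rw [h6, pow_mul] at h5
    rw [← h5]
    exact F₀.pow_mem hcp _
  intro i j
  rw [Units.val_mul, hc, Matrix.mul_smul, mul_one, Matrix.smul_apply, smul_eq_mul]
  refine F₀.mul_mem hcF ?_
  show (F₀.subtype ((g' : Matrix (Fin n) (Fin n) F₀) i j)) ∈ F₀
  exact Subtype.property _

end Cfsg.Agent.Lib.Helper32.AschU
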