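import Cfsg.Agent.Lib.Helper32.AschU.Defs
import Cfsg.Agent.Lib.Helper32.AschU.TVE
import Cfsg.Agent.Lib.Helper32.AschU.TVS
import Cfsg.Agent.Lib.Helper17.Herm

set_option autoImplicit false

namespace Cfsg.Agent.Lib.Helper32.AschU

open Cfsg Cfsg.Geo Cfsg.Agent.Lib.Helper77.Asch
open scoped MatrixGroups Matrix

variable {n : ℕ} {F : Type*} [Field F]

/-- If `f (P e_j) u = 0` for all `j` then `u = 0`. -/
theorem pu4a_exists_col [Fintype F] (q : ℕ) (hF : Fintype.card F = q ^ 2) (P : GL (Fin n) F) (u : Fin n → F)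
    (hu0 : u ≠ 0) : ∃ j, hermForm n F q ((P : Matrix (Fin n) (Fin n) F) *ᵥ Pi.single j 1) u ≠ 0 := by
  by_contra hcon
  push Not at hcon
  let L : (Fin n → F) →ₗ[F] F :=
    { toFun := fun w => hermForm n F q ((P : Matrix (Fin n) (Fin n) F) *ᵥ w) u
      map_add' := fun a b => by rw [Matrix.mulVec_add, Helper17.hermForm_add_left]
      map_smul' := fun c a => by
        rw [Matrix.mulVec_smul, Helper17.hermForm_smul_left]; rfl }
  have hL : L = 0 := by
    apply (Pi.basisFun F (Fin n)).ext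
    intro j
    simpa [L] using hcon j
  apply hu0
  funext i
  have h1 : L (((P⁻¹ : GL (Fin n) F) : Matrix (Fin n) (Fin n) F) *ᵥ Pi.single i 1) = 0 := by rw [hL]; rfl
  have h2 : hermForm n F q (Pi.single i 1) u = 0 := by
    have : (P : Matrix (Fin n) (Fin n) F) *ᵥ (((P⁻¹ : GL (Fin n) F) : Matrix (Fin n) (Fin n) F) *ᵥ Pi.single i 1)
        = Pi.single i 1 := by
      rw [Matrix.mulVec_mulVec, ← Units.val_mul, mul_inv_cancel, Units.val_one, Matrix.one_mulVec]
    have h1' : hermForm n F q ((P : Matrix (Fin n) (Fin n) F) *ᵥ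
        (((P⁻¹ : GL (Fin n) F) : Matrix (Fin n) (Fin n) F) *ᵥ Pi.single i 1)) u = 0 := h1
    rwa [this] at h1'
  rw [Helper17.hermForm_single_left] at h2
  exact pow_eq_zero_iff (by have := Helper17.two_le_of_card_sq hF; omega) |>.mp h2

/-- The entries of the conjugated transvection. -/
theorem pu4a_entry (q : ℕ) (P g : GL (Fin n) F) (u : Fin n → F) (a : F)
    (hg : ∀ v, (g : Matrix (Fin n) (Fin n) F) *ᵥ v = v + (a * hermForm n F q v u) • u) (i j : Fin n) :
    (((P⁻¹ * g * P : GL (Fin n) F)) : Matrix (Fin n) (Fin n) F) i j =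
      (if i = j then 1 else 0) + a * (hermForm n F q ((P : Matrix (Fin n) (Fin n) F) *ᵥ Pi.single j 1) u *
        (((P⁻¹ : GL (Fin n) F) : Matrix (Fin n) (Fin n) F) *ᵥ u) i) := by
  have h1 : (((P⁻¹ * g * P : GL (Fin n) F)) : Matrix (Fin n) (Fin n) F) i j =
      ((((P⁻¹ * g * P : GL (Fin n) F)) : Matrix (Fin n) (Fin n) F) *ᵥ Pi.single j 1) i := by
    rw [Matrix.mulVec_single_one]; rfl
  rw [h1, Units.val_mul, Units.val_mul, ← Matrix.mulVec_mulVec, ← Matrix.mulVec_mulVec, hg,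
    Matrix.mulVec_add, Matrix.mulVec_smul, Matrix.mulVec_mulVec, ← Units.val_mul, inv_mul_cancel,
    Units.val_one, Matrix.one_mulVec]
  simp only [Pi.add_apply, Pi.smul_apply, smul_eq_mul, Pi.single_apply]
  ring

/-- The fixed field of `a ↦ a^q` lies in `F₀`. -/
theorem pu4a_fixed_mem [Fintype F] (q : ℕ) (hF : Fintype.card F = q ^ 2) (h2 : 2 ≤ n) (F₀ : Subfield F)
    (P : GL (Fin n) F) (hle : SUg n F q ≤ subfieldSubgroup F₀ P) (b : F) (hb : b ^ q = b) : b ∈ F₀ := by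
  obtain ⟨u, hu0, hu⟩ := exists_isotropic q hF h2
  obtain ⟨a, ha0, ha⟩ := exists_skew (F := F) q hF
  by_cases hb0 : b = 0
  · rw [hb0]; exact F₀.zero_mem
  obtain ⟨j, hj⟩ := pu4a_exists_col q hF P u hu0
  have hu' : ((P⁻¹ : GL (Fin n) F) : Matrix (Fin n) (Fin n) F) *ᵥ u ≠ 0 := by
    intro h
    apply hu0
    have : (P : Matrix (Fin n) (Fin n) F) *ᵥ (((P⁻¹ : GL (Fin n) F) : Matrix (Fin n) (Fin n) F) *ᵥ u) = u := by
      rw [Matrix.mulVec_mulVec, ← Units.val_mul, mul_inv_cancel, Units.val_one, Matrix.one_mulVec]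
    rw [← this, h, Matrix.mulVec_zero]
  obtain ⟨i, hi⟩ := Function.ne_iff.mp hu'
  simp only [Pi.zero_apply] at hi
  set κ : F := hermForm n F q ((P : Matrix (Fin n) (Fin n) F) *ᵥ Pi.single j 1) u *
        (((P⁻¹ : GL (Fin n) F) : Matrix (Fin n) (Fin n) F) *ᵥ u) i with hκ
  have hκ0 : κ ≠ 0 := mul_ne_zero hj hi
  have key : ∀ c : F, c ≠ 0 → c ^ q = -c → c * κ ∈ F₀ := by
    intro c hc0 hc
    obtain ⟨g, hgS, hg⟩ := exists_tv q hF u hu c hc
    have hT : IsTv g := isTv_of_tv q hF u hu0 hu c hc0 g hg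
    have hr := tv_rational F₀ P (by omega) g hT (hle hgS) i j
    rw [pu4a_entry q P g u c hg i j] at hr
    have hd : ((if i = j then 1 else 0 : F)) ∈ F₀ := by
      split_ifs
      · exact F₀.one_mem
      · exact F₀.zero_mem
    have := F₀.sub_mem hr hd
    simpa [hκ] using this
  have h1 := key a ha0 ha
  have h2' := key (a * b) (mul_ne_zero ha0 hb0) (by rw [mul_pow, ha, hb]; ring)
  have h3 := F₀.div_mem h2' h1
  have h4 : a * b * κ / (a * κ) = b := by
    field_simp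
  rwa [h4] at h3

/-- PU4A. -/
theorem not_le_subfield_odd [Fintype F] (q : ℕ) (hF : Fintype.card F = q ^ 2) (h2 : 2 ≤ n) (F₀ : Subfield F) (r : ℕ)
    (hr : r.Prime) (hodd : Odd r) (hc : Fintype.card F = Nat.card F₀ ^ r) (P : GL (Fin n) F) :
    ¬ SUg n F q ≤ subfieldSubgroup F₀ P := by
  classical
  intro hle
  have hq2 : 2 ≤ q := Helper17.two_le_of_card_sq hF
  set s := Nat.card F₀ with hs
  have hs2 : 2 ≤ s := by
    have : 1 < Nat.card F₀ := Finite.one_lt_card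
    omega
  obtain ⟨g, hg⟩ := IsCyclic.exists_generator (α := Fˣ)
  have hord : orderOf g = q ^ 2 - 1 := by
    rw [orderOf_eq_card_of_forall_mem_zpowers hg, Nat.card_eq_fintype_card, Fintype.card_units, hF]
  have hgq : g ^ (q ^ 2 - 1) = 1 := by rw [← hord]; exact pow_orderOf_eq_one g
  have hb : (((g ^ (q + 1) : Fˣ) : F)) ^ q = ((g ^ (q + 1) : Fˣ) : F) := by
    rw [← Units.val_pow_eq_pow_val, ← pow_mul]
    congr 1
    have : (q + 1) * q = (q ^ 2 - 1) + (q + 1) := by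
      have : 1 ≤ q ^ 2 := Nat.one_le_pow _ _ (by omega)
      zify [this]; ring
    rw [this, pow_add, hgq, one_mul]
  have hmem := pu4a_fixed_mem q hF h2 F₀ P hle _ hb
  have hpow : (((g ^ (q + 1) : Fˣ) : F)) ^ s = ((g ^ (q + 1) : Fˣ) : F) := by
    have : Fintype F₀ := Fintype.ofFinite _
    have := FiniteField.pow_card (⟨_, hmem⟩ : F₀)
    have h' := congrArg (Subtype.val) this
    rw [hs, Nat.card_eq_fintype_card]
    simpa using h'
  have hpow' : g ^ ((q + 1) * (s - 1)) = 1 := by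
    have h1 : (g ^ (q + 1)) ^ s = g ^ (q + 1) := by
      ext; rw [Units.val_pow_eq_pow_val]; exact hpow
    have h2 : (g ^ (q + 1)) ^ (s - 1) * g ^ (q + 1) = g ^ (q + 1) := by
      rw [← pow_succ, Nat.sub_add_cancel (by omega)]; exact h1
    rw [pow_mul]
    exact mul_eq_right.mp h2
  have hdvd : q ^ 2 - 1 ∣ (q + 1) * (s - 1) := by
    rw [← hord]; exact orderOf_dvd_of_pow_eq_one hpow'
  have hfac : q ^ 2 - 1 = (q + 1) * (q - 1) := by
    have : 1 ≤ q ^ 2 := Nat.one_le_pow _ _ (by omega)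
    zify [this, (by omega : 1 ≤ q)]; ring
  rw [hfac] at hdvd
  have hdvd' : q - 1 ∣ s - 1 := Nat.dvd_of_mul_dvd_mul_left (by omega) hdvd
  have hle' : q - 1 ≤ s - 1 := Nat.le_of_dvd (by omega) hdvd'
  have hqs : q ≤ s := by omega
  have hr3 : 3 ≤ r := by
    have := hr.two_le
    rcases hodd with ⟨k, hk⟩
    omega
  have h1 : s ^ 3 ≤ s ^ r := Nat.pow_le_pow_right (by omega) hr3
  have h2 : q ^ 2 ≤ s ^ 2 := Nat.pow_le_pow_left hqs 2
  rw [hF] at hc
  have h3 : s ^ 2 * 2 ≤ s ^ 3 := by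
    rw [pow_succ s 2]; exact Nat.mul_le_mul_left _ hs2
  have h4 : 0 < s ^ 2 := by positivity
  omega

end Cfsg.Agent.Lib.Helper32.AschU
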