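import Cfsg.Agent.Lib.Helper32.AschU.Defs
import Cfsg.Agent.Lib.Helper32.AschU.TVE
import Cfsg.Agent.Lib.Helper32.AschU.TVS
import Cfsg.Agent.Lib.Helper32.AschU.GRAM
import Cfsg.Agent.Lib.Helper32.AschU.FR2A

set_option autoImplicit false

namespace Cfsg.Agent.Lib.Helper32.AschU

open Cfsg Cfsg.Geo Cfsg.Agent.Lib.Helper77.Asch
open scoped MatrixGroups Matrix

variable {n : ℕ} {F : Type*} [Field F]

/-- a transvection preserves no non-degenerate symmetric bilinear form in odd characteristic. -/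
theorem pu4b_key (h2 : (2 : F) ≠ 0) (J Y : Matrix (Fin n) (Fin n) F) (hJ : IsUnit J) (hsym : Jᵀ = J)
    (hinv : Yᵀ * J * Y = J) (u : Fin n → F) (a : (Fin n → F) → F) (hau : a u = 0)
    (hY : ∀ v, Y *ᵥ v = v + a v • u) : ∀ v, Y *ᵥ v = v := by
  by_contra hcon
  push Not at hcon
  obtain ⟨w₀, hw₀⟩ := hcon
  have haw : a w₀ ≠ 0 := by
    intro h
    apply hw₀
    rw [hY, h, zero_smul, add_zero]
  have hu0 : u ≠ 0 := by
    rintro rfl
    apply hw₀
    rw [hY, smul_zero, add_zero]
  set b : (Fin n → F) → (Fin n → F) → F := fun v w => v ⬝ᵥ (J *ᵥ w) with hb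
  have hbsym : ∀ v w, b v w = b w v := by
    intro v w
    simp only [hb]
    rw [Matrix.dotProduct_mulVec, ← Matrix.mulVec_transpose, hsym, dotProduct_comm]
  have hbinv : ∀ v w, b (Y *ᵥ v) (Y *ᵥ w) = b v w := by
    intro v w
    simp only [hb]
    rw [Matrix.mulVec_mulVec, Matrix.dotProduct_mulVec, Matrix.vecMul_mulVec, ← Matrix.dotProduct_mulVec,
      ← mul_assoc, hinv]
  have hexp : ∀ v w, a w * b v u + a v * b u w + a v * a w * b u u = 0 := by
    intro v w
    have h := hbinv v w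
    rw [hY, hY] at h
    simp only [hb, Matrix.mulVec_add, Matrix.mulVec_smul, add_dotProduct, dotProduct_add, smul_dotProduct,
      dotProduct_smul, smul_eq_mul] at h ⊢
    linear_combination h
  have huu : b u u = 0 := by
    have h := hexp u w₀
    rw [hau] at h
    simp only [zero_mul, add_zero] at h
    exact (mul_eq_zero.1 h).resolve_left haw
  have hall : ∀ v, b v u = 0 := by
    intro v
    by_cases hv : a v = 0
    · have h := hexp v w₀
      rw [hv, huu] at h
      simp only [zero_mul, add_zero, mul_zero] at h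
      exact (mul_eq_zero.1 h).resolve_left haw
    · have h := hexp v v
      rw [huu, hbsym u v] at h
      have h' : (2 * a v) * b v u = 0 := by linear_combination h
      exact (mul_eq_zero.1 h').resolve_left (mul_ne_zero h2 hv)
  have hJu : J *ᵥ u = 0 := by
    funext i
    have := hall (Pi.single i 1)
    simpa [hb] using this
  obtain ⟨Ji, hJi⟩ := hJ.exists_left_inv
  apply hu0
  calc u = (Ji * J) *ᵥ u := by rw [hJi, Matrix.one_mulVec]
    _ = 0 := by rw [← Matrix.mulVec_mulVec, hJu, Matrix.mulVec_zero]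

/-- PU4B. -/
theorem not_le_subfield_two [Fintype F] (q : ℕ) (hF : Fintype.card F = q ^ 2) (h2 : 2 ≤ n) (hq : Odd q) (F₀ : Subfield F)
    (hc : Fintype.card F = Nat.card F₀ ^ 2) (P : GL (Fin n) F)
    (hrat : IsFormRationalStructure (hermForm n F q) F₀ 1 P) :
    ¬ SUg n F q ≤ subfieldSubgroup F₀ P := by
  classical
  intro hle
  obtain ⟨τ, hτSU, hτ⟩ := exists_isTv (n := n) q hF h2
  have hr := tv_rational F₀ P (by omega) τ hτ (hle hτSU)
  have hcard := fr2_card hF F₀ hc
  have h2F : (2 : F) ≠ 0 := by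
    apply Ring.two_ne_zero
    intro hch
    have := FiniteField.even_card_of_char_two hch
    rw [hF] at this
    have hodd : Odd (q ^ 2) := hq.pow
    rw [Nat.odd_iff] at hodd
    omega
  set Y : Matrix (Fin n) (Fin n) F := ((P⁻¹ * τ * P : GL (Fin n) F) : Matrix (Fin n) (Fin n) F) with hY
  have hYq : Y.map (· ^ q) = Y := by
    ext i j
    exact fr2_pow_of_mem F₀ hcard (hr i j)
  have hJq : (gram q P).map (· ^ q) = gram q P := by
    ext i j
    rw [Matrix.map_apply]
    apply fr2_pow_of_mem F₀ hcard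
    rw [gram_entry q hF]
    have := hrat (Pi.single i 1) (Pi.single j 1)
      (fun k => by by_cases h : k = i <;> simp [Pi.single_apply, h, F₀.one_mem, F₀.zero_mem])
      (fun k => by by_cases h : k = j <;> simp [Pi.single_apply, h, F₀.one_mem, F₀.zero_mem])
    simpa using this
  have hsym : (gram q P)ᵀ = gram q P := by rw [gram_herm q hF, hJq]
  have hinv := gram_inv q hF P τ hτSU.1
  rw [← hY, hYq] at hinv
  obtain ⟨hne, u, φ, hφu, hv⟩ := hτ
  have hPP : ((P⁻¹ : GL (Fin n) F) : Matrix (Fin n) (Fin n) F) * (P : Matrix (Fin n) (Fin n) F) = 1 := by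
    rw [← Units.val_mul, inv_mul_cancel, Units.val_one]
  have hPP' : (P : Matrix (Fin n) (Fin n) F) * ((P⁻¹ : GL (Fin n) F) : Matrix (Fin n) (Fin n) F) = 1 := by
    rw [← Units.val_mul, mul_inv_cancel, Units.val_one]
  have hYv : ∀ v, Y *ᵥ v = v + (φ ((P : Matrix (Fin n) (Fin n) F) *ᵥ v)) •
      (((P⁻¹ : GL (Fin n) F) : Matrix (Fin n) (Fin n) F) *ᵥ u) := by
    intro v
    rw [hY, Units.val_mul, Units.val_mul, ← Matrix.mulVec_mulVec, ← Matrix.mulVec_mulVec, hv, Matrix.mulVec_add,
      Matrix.mulVec_mulVec, hPP, Matrix.one_mulVec, Matrix.mulVec_smul]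
  have hfix := pu4b_key h2F (gram q P) Y (gram_isUnit q hF P) hsym hinv
    (((P⁻¹ : GL (Fin n) F) : Matrix (Fin n) (Fin n) F) *ᵥ u)
    (fun v => φ ((P : Matrix (Fin n) (Fin n) F) *ᵥ v))
    (by show φ _ = 0; rw [Matrix.mulVec_mulVec, hPP', Matrix.one_mulVec, hφu]) hYv
  have hY1 : (P⁻¹ * τ * P : GL (Fin n) F) = 1 := by
    apply Units.ext
    rw [Units.val_one]
    apply Matrix.toLin'.injective
    apply LinearMap.ext
    intro v
    rw [Matrix.toLin'_apply, Matrix.toLin'_one, LinearMap.id_apply]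
    exact hfix v
  apply hne
  have : τ = P * (P⁻¹ * τ * P) * P⁻¹ := by group
  rw [this, hY1]
  group

end Cfsg.Agent.Lib.Helper32.AschU
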