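import Cfsg.Agent.Lib.Helper32.AschU.Defs

set_option autoImplicit false

namespace Cfsg.Agent.Lib.Helper32.AschU

open Cfsg Cfsg.Geo Cfsg.Agent.Lib.Helper77.Asch
open scoped MatrixGroups Matrix

variable {n : ℕ} {F : Type*} [Field F]

/-- TV3: a transvection normalises no field subalgebra of degree `n ≥ 3`. -/
theorem tv_not_mem_fieldNormalizer (h3 : 3 ≤ n) (K : Subalgebra F (Matrix (Fin n) (Fin n) F))
    (hK : IsFieldSubalgebra n K) (τ : GL (Fin n) F) (hτ : IsTv τ) : τ ∉ subalgebraNormalizer K := by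
  classical
  intro hmem
  obtain ⟨hne, u, φ, hφu, hv⟩ := hτ
  set T : Matrix (Fin n) (Fin n) F := (τ : Matrix (Fin n) (Fin n) F) with hT
  set T' : Matrix (Fin n) (Fin n) F := ((τ⁻¹ : GL (Fin n) F) : Matrix (Fin n) (Fin n) F) with hT'
  have hT'T : T' * T = 1 := by rw [hT, hT', ← Units.val_mul, inv_mul_cancel, Units.val_one]
  have hdetT : T.det ≠ 0 := by
    have := congrArg Matrix.det hT'T
    rw [Matrix.det_mul, Matrix.det_one] at this
    exact right_ne_zero_of_mul_eq_one this
  -- τ commutes with K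
  have hcomm : ∀ k ∈ K, T * k = k * T := by
    intro k hk
    have hk' : T * k * T' ∈ K := (hmem k).1 hk
    set D : Matrix (Fin n) (Fin n) F := T * k * T' - k with hD
    have hDK : D ∈ K := K.sub_mem hk' hk
    have hDT : D * T = T * k - k * T := by
      rw [hD, sub_mul, mul_assoc, hT'T, mul_one]
    have hD0 : D = 0 := by
      by_contra hD0
      obtain ⟨y, _, hy⟩ := hK.inv D hDK hD0
      have hker : LinearMap.ker ((φ.comp (Matrix.toLin' k)).prod φ) ≠ ⊥ := by
        apply LinearMap.ker_ne_bot_of_finrank_lt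
        rw [Module.finrank_prod, Module.finrank_self, Module.finrank_fin_fun]
        omega
      obtain ⟨z, hz, hz0⟩ := (Submodule.ne_bot_iff _).1 hker
      rw [LinearMap.mem_ker, LinearMap.prod_apply, Prod.mk_eq_zero] at hz
      obtain ⟨hz1, hz2⟩ := hz
      change φ (Matrix.toLin' k z) = 0 at hz1
      change φ z = 0 at hz2
      rw [Matrix.toLin'_apply] at hz1
      have hdet : (D * T).det = 0 := by
        rw [← Matrix.exists_mulVec_eq_zero_iff]
        refine ⟨z, hz0, ?_⟩
        rw [hDT, Matrix.sub_mulVec, ← Matrix.mulVec_mulVec, ← Matrix.mulVec_mulVec, hv, hv, hz1, hz2]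
        simp
      rw [Matrix.det_mul] at hdet
      have hdD : D.det = 0 := (mul_eq_zero.1 hdet).resolve_right hdetT
      have := congrArg Matrix.det hy
      rw [Matrix.det_mul, hdD, zero_mul, Matrix.det_one] at this
      exact zero_ne_one this
    rw [hD0, zero_mul] at hDT
    exact sub_eq_zero.1 hDT.symm
  -- a nonzero vector fixed by τ
  have hkerφ : LinearMap.ker φ ≠ ⊥ := by
    apply LinearMap.ker_ne_bot_of_finrank_lt
    rw [Module.finrank_self, Module.finrank_fin_fun]
    omega
  obtain ⟨u', hu', hu'0⟩ := (Submodule.ne_bot_iff _).1 hkerφ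
  rw [LinearMap.mem_ker] at hu'
  let L : K →ₗ[F] (Fin n → F) :=
    { toFun := fun k => (k : Matrix (Fin n) (Fin n) F) *ᵥ u'
      map_add' := fun a b => by simp [Matrix.add_mulVec]
      map_smul' := fun c a => by simp [Matrix.smul_mulVec] }
  have hLinj : Function.Injective L := by
    rw [← LinearMap.ker_eq_bot, LinearMap.ker_eq_bot']
    intro k hk
    by_contra hk0
    have hk0' : (k : Matrix (Fin n) (Fin n) F) ≠ 0 := fun h => hk0 (Subtype.ext h)
    obtain ⟨y, hyK, hy⟩ := hK.inv _ k.2 hk0'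
    have hy' : y * (k : Matrix (Fin n) (Fin n) F) = 1 := by rw [hK.comm y hyK _ k.2, hy]
    have h1 : (k : Matrix (Fin n) (Fin n) F) *ᵥ u' = 0 := hk
    have : u' = 0 := by
      calc u' = (y * (k : Matrix (Fin n) (Fin n) F)) *ᵥ u' := by rw [hy', Matrix.one_mulVec]
        _ = 0 := by rw [← Matrix.mulVec_mulVec, h1, Matrix.mulVec_zero]
    exact hu'0 this
  have hLsurj : Function.Surjective L := by
    refine (LinearMap.injective_iff_surjective_of_finrank_eq_finrank ?_).1 hLinj
    rw [hK.finrank_eq, Module.finrank_fin_fun]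
  apply hne
  apply Units.ext
  rw [Units.val_one]
  apply Matrix.toLin'.injective
  apply LinearMap.ext
  intro v
  obtain ⟨k, rfl⟩ := hLsurj v
  rw [Matrix.toLin'_apply, Matrix.toLin'_one, LinearMap.id_apply]
  show T *ᵥ ((k : Matrix (Fin n) (Fin n) F) *ᵥ u') = (k : Matrix (Fin n) (Fin n) F) *ᵥ u'
  rw [Matrix.mulVec_mulVec, hcomm _ k.2, ← Matrix.mulVec_mulVec, hv, hu']
  simp

end Cfsg.Agent.Lib.Helper32.AschU
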