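import Cfsg.Agent.Lib.Helper32.AschU.Defs

set_option autoImplicit false

namespace Cfsg.Agent.Lib.Helper32.AschU

open Cfsg Cfsg.Geo Cfsg.Agent.Lib.Helper77.Asch
open scoped MatrixGroups Matrix

variable {n : ℕ} {F : Type*} [Field F]

theorem absIrr_of_finrank_one (S : Set (Matrix (Fin n) (Fin n) F)) (hS : ActsIrreducibly S)
    (h : Module.finrank F (Subalgebra.centralizer F S) = 1) : ActsAbsolutelyIrreducibly S := by
  refine ⟨hS, fun M hM => ?_⟩
  rcases Nat.eq_zero_or_pos n with rfl | hn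
  · exact ⟨0, Subsingleton.elim _ _⟩
  haveI : Nonempty (Fin n) := ⟨⟨0, hn⟩⟩
  have hbot : Subalgebra.centralizer F S = ⊥ := Subalgebra.finrank_eq_one_iff.1 h
  have hmem : M ∈ Subalgebra.centralizer F S := by
    rw [Subalgebra.mem_centralizer_iff]
    intro s hs
    exact (hM s hs).symm
  rw [hbot, Algebra.mem_bot] at hmem
  obtain ⟨c, rfl⟩ := hmem
  exact ⟨c, by rw [Algebra.algebraMap_eq_smul_one]⟩

theorem normBy_iff {H N : Subgroup (GL (Fin n) F)} (h : NormBy H N) (g : GL (Fin n) F) (hg : g ∈ H) :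
    ∀ x, x ∈ N ↔ g * x * g⁻¹ ∈ N := by
  intro x
  refine ⟨fun hx => h g hg x hx, fun hx => ?_⟩
  have := h g⁻¹ (H.inv_mem hg) _ hx
  simpa [mul_assoc] using this

theorem normBy_le_normalizer {H R : Subgroup (GL (Fin n) F)} (h : NormBy H R) : H ≤ subgroupNormalizer R := by
  intro g hg
  rw [subgroupNormalizer, Subgroup.mem_normalizer_iff]
  exact normBy_iff h g hg

theorem normBy_commutator {G : Type*} [Group G] {H N : Subgroup G} (h : NormBy H N) : NormBy H ⁅N, N⁆ := by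
  intro g hg x hx
  have hmap : N.map (MulAut.conj g).toMonoidHom ≤ N := by
    rintro _ ⟨y, hy, rfl⟩
    exact h g hg y hy
  have h1 : (⁅N, N⁆).map (MulAut.conj g).toMonoidHom ≤ ⁅N, N⁆ := by
    rw [Subgroup.map_commutator]
    exact Subgroup.commutator_mono hmap hmap
  exact h1 ⟨x, hx, rfl⟩

theorem mem_scalars_of_commutes (hn : 0 < n) (P : Subgroup (GL (Fin n) F)) (hP : ActsAbsolutelyIrreducibly (matrixSet P))
    (h : GL (Fin n) F) (hh : ∀ x ∈ P, h * x = x * h) : h ∈ scalars (Fin n) F := by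
  obtain ⟨c, hc⟩ := hP.2 (h : Matrix (Fin n) (Fin n) F) (by
    rintro _ ⟨x, hx, rfl⟩
    have := congrArg (fun g : GL (Fin n) F => (g : Matrix (Fin n) (Fin n) F)) (hh x hx)
    simpa using this)
  have hc0 : c ≠ 0 := by
    rintro rfl
    have h1 : (h : Matrix (Fin n) (Fin n) F) * ((h⁻¹ : GL (Fin n) F) : Matrix (Fin n) (Fin n) F) = 1 := by
      rw [← Units.val_mul, mul_inv_cancel, Units.val_one]
    rw [hc, zero_smul, zero_mul] at h1
    have := congrFun (congrFun h1 ⟨0, hn⟩) ⟨0, hn⟩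
    simp at this
  exact (mem_scalars_iff h).2 ⟨Units.mk0 c hc0, hc⟩

theorem solvable_of_comm {G : Type*} [Group G] (M : Subgroup G) (h : ∀ x ∈ M, ∀ y ∈ M, x * y = y * x) :
    Group.IsSolvable M := by
  exact Group.isSolvable_of_comm (fun a b => Subtype.ext (h a a.2 b b.2))

end Cfsg.Agent.Lib.Helper32.AschU
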