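import Cfsg.Agent.Lib.Helper32.AschU.Defs
import Cfsg.Agent.Lib.Helper32.AschU.SMB
import Cfsg.Agent.Lib.Helper77.Asch.HCM
import Cfsg.Agent.Lib.Helper77.Asch.HC

set_option autoImplicit false

namespace Cfsg.Agent.Lib.Helper32.AschU

open Cfsg Cfsg.Geo Cfsg.Agent.Lib.Helper77.Asch
open scoped MatrixGroups Matrix

variable {n : ℕ} {F : Type*} [Field F]

/-- four functionals have a common non-zero kernel vector when `5 ≤ n`. -/
theorem tv5_ker4 (h5 : 5 ≤ n) (f1 f2 f3 f4 : (Fin n → F) →ₗ[F] F) :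
    ∃ v : Fin n → F, v ≠ 0 ∧ f1 v = 0 ∧ f2 v = 0 ∧ f3 v = 0 ∧ f4 v = 0 := by
  have hker : LinearMap.ker ((f1.prod f2).prod (f3.prod f4)) ≠ ⊥ := by
    apply LinearMap.ker_ne_bot_of_finrank_lt
    simp only [Module.finrank_prod, Module.finrank_self, Module.finrank_fin_fun]
    omega
  obtain ⟨z, hz, hz0⟩ := (Submodule.ne_bot_iff _).1 hker
  rw [LinearMap.mem_ker] at hz
  have hz' : ((f1 z, f2 z), (f3 z, f4 z)) = (0 : (F × F) × (F × F)) := hz
  simp only [Prod.mk_eq_zero] at hz'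
  exact ⟨z, hz0, hz'.1.1, hz'.1.2, hz'.2.1, hz'.2.2⟩

theorem tv5_sc_mulVec (ζ : Fˣ) (v : Fin n → F) :
    ((sc ζ : GL (Fin n) F) : Matrix (Fin n) (Fin n) F) *ᵥ v = (ζ : F) • v := by
  rw [hb_sc_coe, Matrix.smul_mulVec, Matrix.one_mulVec]

theorem tv5_mulVec_ne (k : GL (Fin n) F) (v : Fin n → F) (hv : v ≠ 0) :
    (k : Matrix (Fin n) (Fin n) F) *ᵥ v ≠ 0 := by
  intro h0
  apply hv
  have : ((k⁻¹ * k : GL (Fin n) F) : Matrix (Fin n) (Fin n) F) *ᵥ v = 0 := by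
    rw [Units.val_mul, ← Matrix.mulVec_mulVec, h0, Matrix.mulVec_zero]
  rwa [inv_mul_cancel, Units.val_one, Matrix.one_mulVec] at this

theorem tv5_smul_fix (ζ : Fˣ) (v : Fin n → F) (hv : v ≠ 0) (h : (ζ : F) • v = v) : ζ = 1 := by
  have h1 : ((ζ : F) - 1) • v = 0 := by rw [sub_smul, one_smul, h, sub_self]
  rcases smul_eq_zero.1 h1 with h2 | h2
  · exact Units.ext (by simpa using sub_eq_zero.1 h2)
  · exact absurd h2 hv

/-- if `g` fixes `ker f1 ⊓ ker f2` pointwise and `k g = ζ g k` then `ζ = 1`. -/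
theorem tv5_key (h5 : 5 ≤ n) (g k : GL (Fin n) F) (ζ : Fˣ) (f1 f2 : (Fin n → F) →ₗ[F] F)
    (hfix : ∀ v, f1 v = 0 → f2 v = 0 → (g : Matrix (Fin n) (Fin n) F) *ᵥ v = v)
    (hk : k * g = sc ζ * (g * k)) : ζ = 1 := by
  obtain ⟨v, hv0, h1, h2, h3, h4⟩ := tv5_ker4 h5 f1 f2
    (f1.comp (Matrix.toLin' (k : Matrix (Fin n) (Fin n) F)))
    (f2.comp (Matrix.toLin' (k : Matrix (Fin n) (Fin n) F)))
  rw [LinearMap.comp_apply, Matrix.toLin'_apply] at h3 h4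
  have e := congrArg (fun m : GL (Fin n) F => (m : Matrix (Fin n) (Fin n) F) *ᵥ v) hk
  simp only [Units.val_mul, ← Matrix.mulVec_mulVec] at e
  rw [hfix v h1 h2, hfix _ h3 h4, tv5_sc_mulVec] at e
  exact tv5_smul_fix ζ _ (tv5_mulVec_ne k v hv0) e.symm

/-- an element of `R` fixing `ker f1 ⊓ ker f2` pointwise is trivial. -/
theorem tv5_claim (h5 : 5 ≤ n) (R : Subgroup (GL (Fin n) F)) (x y : GL (Fin n) F) (w : Fˣ)
    (h : Heis R x y w) (g : GL (Fin n) F) (hg : g ∈ R) (f1 f2 : (Fin n → F) →ₗ[F] F)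
    (hfix : ∀ v, f1 v = 0 → f2 v = 0 → (g : Matrix (Fin n) (Fin n) F) *ᵥ v = v) : g = 1 := by
  obtain ⟨a, b, c, hgabc⟩ := h.gen g hg
  have hz : ∀ m : GL (Fin n) F, Commute (sc w : GL (Fin n) F) m := hc_sc_comm w
  have e4 : x * g = sc (w ^ b) * (g * x) := by
    rw [hgabc, ← hc_sc_pow]; exact hc_l4 hz h.comm a b c
  have e3 : y * g = sc ((w ^ a)⁻¹) * (g * y) := by
    have e3' : g * y = sc (w ^ a) * (y * g) := by
      rw [hgabc, ← hc_sc_pow]; exact hc_l3 hz h.comm a b c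
    rw [e3', ← mul_assoc]
    have : (sc ((w ^ a)⁻¹) : GL (Fin n) F) * sc (w ^ a) = 1 := by
      unfold sc
      rw [← map_mul, inv_mul_cancel, map_one]
    rw [this, one_mul]
  have hb : w ^ b = 1 := tv5_key h5 g x _ f1 f2 hfix e4
  have ha : w ^ a = 1 := by
    have := tv5_key h5 g y _ f1 f2 hfix e3
    simpa using this
  have hb' : n ∣ b := by rw [← h.w_ord]; exact orderOf_dvd_of_pow_eq_one hb
  have ha' : n ∣ a := by rw [← h.w_ord]; exact orderOf_dvd_of_pow_eq_one ha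
  have hxa : x ^ a = 1 := by
    obtain ⟨t, rfl⟩ := ha'
    rw [pow_mul, h.x_pow, one_pow]
  have hyb : y ^ b = 1 := by
    obtain ⟨t, rfl⟩ := hb'
    rw [pow_mul, h.y_pow, one_pow]
  rw [hxa, hyb, mul_one, mul_one, hc_sc_pow] at hgabc
  obtain ⟨v, hv0, h1, h2, -, -⟩ := tv5_ker4 h5 f1 f2 f1 f2
  have e := hfix v h1 h2
  rw [hgabc, tv5_sc_mulVec] at e
  have hc1 : w ^ c = 1 := tv5_smul_fix _ v hv0 e
  rw [hgabc, hc1]
  unfold sc
  rw [map_one]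

/-- TV5: a transvection does not normalise a Heisenberg group of prime degree `n ≥ 5`. -/
theorem tv_not_mem_heisNormalizer (hn : n.Prime) (h4 : 4 ≤ n) (R : Subgroup (GL (Fin n) F)) (x y : GL (Fin n) F) (w : Fˣ)
    (h : Heis R x y w) (τ : GL (Fin n) F) (hτ : IsTv τ) :
    τ ∉ subgroupNormalizer R := by
  classical
  intro hmem
  have h5 : 5 ≤ n := by
    rcases Nat.lt_or_ge 4 n with h' | h'
    · exact h'
    · have : n = 4 := le_antisymm h' h4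
      subst this
      exact absurd hn (by norm_num)
  obtain ⟨hne, u, φ, hφu, hv⟩ := hτ
  have hN : ∀ m, m ∈ R ↔ τ * m * τ⁻¹ ∈ R := Subgroup.mem_normalizer_iff.1 hmem
  have hτfix : ∀ v, φ v = 0 → (τ : Matrix (Fin n) (Fin n) F) *ᵥ v = v := by
    intro v h0
    rw [hv, h0, zero_smul, add_zero]
  have hτifix : ∀ v, φ v = 0 → ((τ⁻¹ : GL (Fin n) F) : Matrix (Fin n) (Fin n) F) *ᵥ v = v := by
    intro v h0
    have : ((τ⁻¹ * τ : GL (Fin n) F) : Matrix (Fin n) (Fin n) F) *ᵥ v = v := by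
      rw [inv_mul_cancel, Units.val_one, Matrix.one_mulVec]
    rw [Units.val_mul, ← Matrix.mulVec_mulVec, hτfix v h0] at this
    exact this
  have hcomm : ∀ g₀ ∈ R, τ * g₀ = g₀ * τ := by
    intro g₀ hg₀
    have hg : τ * g₀ * τ⁻¹ * g₀⁻¹ ∈ R := R.mul_mem ((hN g₀).1 hg₀) (R.inv_mem hg₀)
    have h1 : τ * g₀ * τ⁻¹ * g₀⁻¹ = 1 := by
      refine tv5_claim h5 R x y w h _ hg φ
        (φ.comp (Matrix.toLin' ((g₀⁻¹ : GL (Fin n) F) : Matrix (Fin n) (Fin n) F))) ?_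
      intro v h1 h2
      rw [LinearMap.comp_apply, Matrix.toLin'_apply] at h2
      simp only [Units.val_mul, ← Matrix.mulVec_mulVec]
      have e0 : (g₀ : Matrix (Fin n) (Fin n) F) *ᵥ
          (((g₀⁻¹ : GL (Fin n) F) : Matrix (Fin n) (Fin n) F) *ᵥ v) = v := by
        rw [Matrix.mulVec_mulVec, ← Units.val_mul, mul_inv_cancel, Units.val_one, Matrix.one_mulVec]
      rw [hτifix _ h2, e0, hτfix v h1]
    have h2 : τ * g₀ * τ⁻¹ = g₀ := by
      rw [mul_inv_eq_one] at h1; exact h1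
    rw [mul_inv_eq_iff_eq_mul] at h2
    exact h2
  have hsc : τ ∈ scalars (Fin n) F :=
    heis_commutant hn x y w h.x_pow h.y_pow h.w_ord h.comm τ (hcomm x h.x_mem) (hcomm y h.y_mem)
  obtain ⟨c, hc⟩ := (mem_scalars_iff τ).1 hsc
  obtain ⟨v, hv0, h1, -, -, -⟩ := tv5_ker4 h5 φ φ φ φ
  have e := hτfix v h1
  rw [hc, Matrix.smul_mulVec, Matrix.one_mulVec] at e
  have hc1 : c = 1 := tv5_smul_fix c v hv0 e
  apply hne
  apply Units.ext
  rw [hc, hc1]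
  simp

end Cfsg.Agent.Lib.Helper32.AschU
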