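import Cfsg.Agent.Lib.Helper32.AschU.Main
import Cfsg.Agent.Lib.Helper32.AschU.FMIN
import Cfsg.Agent.Lib.Helper32.AschU.TVE
import Cfsg.Agent.Lib.Helper32.AschU.PU1
import Cfsg.Agent.Lib.Helper32.AschU.PU2
import Cfsg.Agent.Lib.Helper32.AschU.TV3
import Cfsg.Agent.Lib.Helper32.AschU.TV5
import Cfsg.Agent.Lib.Helper32.AschU.PU4A
import Cfsg.Agent.Lib.Helper32.AschU.PU4B
import Cfsg.Agent.Lib.Helper32.AschU.AR

set_option autoImplicit false

namespace Cfsg.Agent.Lib.Helper32.AschU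

open Cfsg Cfsg.Geo Cfsg.Agent.Lib.Helper77.Asch
open scoped MatrixGroups Matrix

variable {n : ℕ} {F : Type*} [Field F]

theorem eq_of_max {G : Type*} [Group G] {K H X : Subgroup G} (hH : IsMaximalIn K H) (hX : H ≤ X)
    (hK : ¬ K ≤ X) : H = X ⊓ K := by
  rcases hH.2 (X ⊓ K) (le_inf hX hH.1.le) inf_le_right with h | h
  · exact h.symm
  · exact absurd (h ▸ inf_le_left) hK

theorem ufinal [Fintype F] (q : ℕ) (hF : Fintype.card F = q ^ 2) (hn : n.Prime) (h5 : 5 ≤ n)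
    (H : Subgroup (GL (Fin n) F)) (hH : IsMaximalIn (SUg n F q) H) :
    (∃ W : Submodule F (Fin n → F), W ≠ ⊥ ∧ IsTotallySingularFor (hermForm n F q) W ∧
      H = subspaceStabilizer W ⊓ SUg n F q) ∨
    (∃ W : Submodule F (Fin n → F), W ≠ ⊥ ∧ IsNondegenerateOn (hermForm n F q) W ∧
      2 * Module.finrank F W < n ∧ H = subspaceStabilizer W ⊓ SUg n F q) ∨
    (∃ D : Fin n → Submodule F (Fin n → F), IsNondegenerateMDecomposition (hermForm n F q) 1 D ∧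
      H = decompositionStabilizer D ⊓ SUg n F q) ∨
    (∃ K : Subalgebra F (Matrix (Fin n) (Fin n) F), IsFieldSubalgebra n K ∧
      IsAdjointClosedFor (hermForm n F q) K ∧ H = subalgebraNormalizer K ⊓ SUg n F q) ∨
    (∃ (F₀ : Subfield F) (r : ℕ) (P : GL (Fin n) F), r.Prime ∧ Odd r ∧ Fintype.card F = Nat.card F₀ ^ r ∧
      IsFormRationalStructure (hermForm n F q) F₀ 1 P ∧ H = subfieldSubgroup F₀ P ⊓ SUg n F q) ∨
    (Odd q ∧ ∃ (F₀ : Subfield F) (P : GL (Fin n) F), Fintype.card F = Nat.card F₀ ^ 2 ∧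
      IsFormRationalStructure (hermForm n F q) F₀ 1 P ∧ H = subfieldSubgroup F₀ P ⊓ SUg n F q) ∨
    (∃ (p k : ℕ) (R : Subgroup (GL (Fin n) F)), p.Prime ∧ CharP F p ∧ 0 < k ∧ q = p ^ k ∧
      orderOf (p : ZMod n) = 2 * k ∧ IsSymplecticTypeGroup n R ∧
      ActsAbsolutelyIrreducibly (matrixSet R) ∧ R ≤ GU n F q ∧ Nat.card R = n ^ 3 ∧
      Nat.card (Subgroup.center R) = n ∧ H = subgroupNormalizer R ⊓ SUg n F q) ∨
    InUnitaryResidualClass H := by
  have h2 : n ≠ 2 := by omega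
  have hHU : H ≤ GU n F q := hH.1.le.trans inf_le_left
  rcases umain q hF hn h2 H hHU with hgeo | hres
  swap
  · exact Or.inr (Or.inr (Or.inr (Or.inr (Or.inr (Or.inr (Or.inr hres))))))
  rcases hgeo with ⟨W, h0, hW, hle⟩ | ⟨W, h0, hW, hd, hle⟩ | ⟨D, hD, hle⟩ | ⟨K, hK, hadj, hle⟩ |
    ⟨F₀, r, P, hr, hro, hc, hrat, hle⟩ | ⟨hq, F₀, P, hc, hrat, hle⟩ | ⟨R, x, y, w, hheis, hRabs, hRU, hmin, hw1, hle⟩
  · refine Or.inl ⟨W, h0, hW, eq_of_max hH hle (not_le_subspace_U q hF (by omega) W h0 ?_)⟩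
    exact totSing_ne_top q (by omega) W hW
  · refine Or.inr (Or.inl ⟨W, h0, hW, hd, eq_of_max hH hle (not_le_subspace_U q hF (by omega) W h0 ?_)⟩)
    rintro rfl
    rw [finrank_top, Module.finrank_fin_fun] at hd
    omega
  · exact Or.inr (Or.inr (Or.inl ⟨D, hD, eq_of_max hH hle (not_le_decomp_U q hF (by omega) D hD)⟩))
  · refine Or.inr (Or.inr (Or.inr (Or.inl ⟨K, hK, hadj, eq_of_max hH hle ?_⟩)))
    intro hcon
    obtain ⟨τ, hτ, htv⟩ := exists_isTv (n := n) q hF (by omega)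
    exact tv_not_mem_fieldNormalizer (by omega) K hK τ htv (hcon hτ)
  · exact Or.inr (Or.inr (Or.inr (Or.inr (Or.inl ⟨F₀, r, P, hr, hro, hc, hrat,
      eq_of_max hH hle (not_le_subfield_odd q hF (by omega) F₀ r hr hro hc P)⟩))))
  · exact Or.inr (Or.inr (Or.inr (Or.inr (Or.inr (Or.inl ⟨hq, F₀, P, hc, hrat,
      eq_of_max hH hle (not_le_subfield_two q hF (by omega) hq F₀ hc P hrat)⟩)))))
  · obtain ⟨p, k, hp, hchar, hk, hqk, hord⟩ := fmin q hF hn w hheis.w_ord hmin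
    obtain ⟨hc1, hc2⟩ := heis_card hn R x y w hheis
    refine Or.inr (Or.inr (Or.inr (Or.inr (Or.inr (Or.inr (Or.inl ⟨p, k, R, hp, hchar, hk, hqk, hord,
      heis_symplecticType hn h2 R x y w hheis, hRabs, hRU, by simpa using hc1, hc2, eq_of_max hH hle ?_⟩))))))
    intro hcon
    obtain ⟨τ, hτ, htv⟩ := exists_isTv (n := n) q hF (by omega)
    exact tv_not_mem_heisNormalizer hn (by omega) R x y w hheis τ htv (hcon hτ)

end Cfsg.Agent.Lib.Helper32.AschU
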