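import Cfsg.Agent.Lib.Helper32.AschU.Defs
import Cfsg.Agent.Lib.Helper17.Herm

set_option autoImplicit false

namespace Cfsg.Agent.Lib.Helper32.AschU

open Cfsg Cfsg.Geo Cfsg.Agent.Lib.Helper77.Asch
open scoped MatrixGroups Matrix

variable {n : ℕ} {F : Type*} [Field F]

open Cfsg.Agent.Lib.Helper17 in
/-- ORTH: the weight lines of a normal abelian group of similitudes form an orthogonal frame. -/
theorem orth [Fintype F] (q : ℕ) (hF : Fintype.card F = q ^ 2) (hn : Odd n) (H N : Subgroup (GL (Fin n) F))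
    (hHs : H ≤ similarityGroup (hermForm n F q)) (hN : N ≤ H) (hH : ActsIrreducibly (matrixSet H))
    (D : Fin n → Submodule F (Fin n → F)) (χ : Fin n → GL (Fin n) F → F) (hD : IsMDecomposition 1 D)
    (hHD : H ≤ decompositionStabilizer D)
    (hχ : ∀ i, ∀ x ∈ N, ∀ u ∈ D i, (x : Matrix (Fin n) (Fin n) F) *ᵥ u = χ i x • u)
    (hne : ∀ i j, i ≠ j → ∃ x ∈ N, χ i x ≠ χ j x) :
    IsNondegenerateMDecomposition (hermForm n F q) 1 D := by
  classical
  have hq2 := two_le_of_card_sq hF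
  have hq0 : q ≠ 0 := by omega
  have hgen : ∀ i, ∃ d : Fin n → F, d ≠ 0 ∧ d ∈ D i ∧ ∀ u ∈ D i, ∃ a : F, u = a • d := by
    intro i
    obtain ⟨v, hv0, hv⟩ := finrank_eq_one_iff'.1 (hD.finrank_eq i)
    refine ⟨v, fun h => hv0 (Subtype.ext h), v.2, fun u hu => ?_⟩
    obtain ⟨c, hc⟩ := hv ⟨u, hu⟩
    exact ⟨c, (congrArg Subtype.val hc).symm⟩
  choose d hd0 hdm hdg using hgen
  have fsm : ∀ (a b : F) (u v : Fin n → F),
      hermForm n F q (a • u) (b • v) = a * b ^ q * hermForm n F q u v := by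
    intro a b u v
    rw [hermForm_smul_left, hermForm_smul_right]
    ring
  have hχ0 : ∀ i, ∀ x ∈ N, χ i x ≠ 0 := by
    intro i x hx h0
    have h1 := hχ i x hx (d i) (hdm i)
    rw [h0, zero_smul] at h1
    have h2 : d i = ((x⁻¹ : GL (Fin n) F) : Matrix (Fin n) (Fin n) F) *ᵥ
        ((x : Matrix (Fin n) (Fin n) F) *ᵥ d i) := by
      rw [Matrix.mulVec_mulVec, ← Units.val_mul, inv_mul_cancel, Units.val_one, Matrix.one_mulVec]
    rw [h1, Matrix.mulVec_zero] at h2
    exact hd0 i h2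
  have huniq : ∀ i j j', hermForm n F q (d i) (d j) ≠ 0 → hermForm n F q (d i) (d j') ≠ 0 →
      j = j' := by
    intro i j j' h1 h2
    by_contra hjj
    obtain ⟨x, hx, hxne⟩ := hne j j' hjj
    obtain ⟨μ, hμ⟩ := hHs (hN hx)
    have e1 := hμ (d i) (d j)
    have e2 := hμ (d i) (d j')
    rw [hχ i x hx _ (hdm i), hχ j x hx _ (hdm j), fsm] at e1
    rw [hχ i x hx _ (hdm i), hχ j' x hx _ (hdm j'), fsm] at e2
    have e3 : χ i x * χ j x ^ q = μ := mul_right_cancel₀ h1 e1
    have e4 : χ i x * χ j' x ^ q = μ := mul_right_cancel₀ h2 e2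
    have e5 : χ j x ^ q = χ j' x ^ q := mul_left_cancel₀ (hχ0 i x hx) (e3.trans e4.symm)
    apply hxne
    rw [← pow_q_pow_q hF (χ j x), e5, pow_q_pow_q hF]
  have hex : ∀ i, ∃ j, hermForm n F q (d i) (d j) ≠ 0 := by
    intro i
    by_contra hcon
    push Not at hcon
    have hall : ∀ v, hermForm n F q (d i) v = 0 := by
      intro v
      have hv : v ∈ iSup D := by rw [hD.iSup_eq_top]; trivial
      refine Submodule.iSup_induction D (motive := fun v => hermForm n F q (d i) v = 0) hv ?_ ?_ ?_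
      · intro j u hu
        obtain ⟨a, rfl⟩ := hdg j u hu
        rw [hermForm_smul_right, hcon j, mul_zero]
      · simp [hermForm, hq0]
      · intro u v hu hv
        rw [hermForm_add_right hF, hu, hv, add_zero]
    obtain ⟨k, hk⟩ : ∃ k, d i k ≠ 0 := by
      by_contra h
      push Not at h
      exact hd0 i (funext h)
    have := hall (Pi.single k 1)
    rw [hermForm_single_right q n hq0] at this
    exact hk this
  have hsymm : ∀ i j, hermForm n F q (d i) (d j) ≠ 0 → hermForm n F q (d j) (d i) ≠ 0 := by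
    intro i j h
    rw [← hermForm_conj hF]
    exact pow_ne_zero _ h
  choose π hπ using hex
  have hππ : ∀ i, π (π i) = i := fun i => huniq (π i) _ _ (hπ (π i)) (hsymm _ _ (hπ i))
  obtain ⟨i0, hi0⟩ : ∃ i, π i = i := by
    by_contra hcon
    push Not at hcon
    have hsum : ∑ _i : Fin n, (1 : ZMod 2) = 0 :=
      Finset.sum_involution (fun a _ => π a) (fun a _ => by decide) (fun a _ _ => hcon a)
        (fun a _ => Finset.mem_univ _) (fun a _ => hππ a)
    rw [Finset.sum_const, Finset.card_univ, Fintype.card_fin, nsmul_eq_mul, mul_one] at hsum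
    have : Even n := (ZMod.natCast_eq_zero_iff_even).1 hsum
    exact (Nat.not_even_iff_odd.2 hn) this
  have hstep : ∀ h ∈ H, ∀ τ : Equiv.Perm (Fin n),
      (∀ i, (D i).map (Matrix.toLin' (h : Matrix (Fin n) (Fin n) F)) = D (τ i)) →
      ∀ i, hermForm n F q (d i) (d i) ≠ 0 → hermForm n F q (d (τ i)) (d (τ i)) ≠ 0 := by
    intro h hh τ hτ i hi
    obtain ⟨μ, hμ⟩ := hHs hh
    have hm : (h : Matrix (Fin n) (Fin n) F) *ᵥ d i ∈ D (τ i) := by
      rw [← hτ i, ← Matrix.toLin'_apply]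
      exact Submodule.mem_map_of_mem (hdm i)
    obtain ⟨a, ha⟩ := hdg _ _ hm
    have e := hμ (d i) (d i)
    rw [ha, fsm] at e
    intro h0
    rw [h0, mul_zero] at e
    exact (mul_ne_zero μ.ne_zero hi) e.symm
  set W : Submodule F (Fin n → F) :=
    ⨆ i : {i // hermForm n F q (d i) (d i) ≠ 0}, D i.1 with hW
  have hi0S : hermForm n F q (d i0) (d i0) ≠ 0 := by
    have := hπ i0
    rwa [hi0] at this
  have hWinv : ∀ s ∈ matrixSet H, W.map (Matrix.toLin' s) ≤ W := by
    rintro s ⟨h, hh, rfl⟩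
    obtain ⟨τ, hτ⟩ := hHD hh
    rw [hW, Submodule.map_iSup]
    refine iSup_le fun i => ?_
    rw [hτ i.1]
    exact le_iSup (fun j : {i // hermForm n F q (d i) (d i) ≠ 0} => D j.1)
      ⟨τ i.1, hstep h hh τ hτ i.1 i.2⟩
  have hWtop : W = ⊤ := by
    rcases hH W hWinv with h | h
    · exfalso
      have : d i0 ∈ W :=
        (le_iSup (fun j : {i // hermForm n F q (d i) (d i) ≠ 0} => D j.1) ⟨i0, hi0S⟩) (hdm i0)
      rw [h, Submodule.mem_bot] at this
      exact hd0 i0 this
    · exact h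
  have hallS : ∀ j, hermForm n F q (d j) (d j) ≠ 0 := by
    intro j
    by_contra hj
    have hle : W ≤ ⨆ (k) (_ : k ≠ j), D k := by
      refine iSup_le fun i => ?_
      have hij : i.1 ≠ j := by
        rintro rfl
        exact i.2 hj
      exact le_iSup₂_of_le i.1 hij le_rfl
    have hdis := hD.indep j
    have h1 : d j ∈ D j ⊓ ⨆ (k) (_ : k ≠ j), D k :=
      ⟨hdm j, hle (by rw [hWtop]; trivial)⟩
    rw [hdis.eq_bot, Submodule.mem_bot] at h1
    exact hd0 j h1
  refine ⟨hD, ?_, ?_⟩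
  · intro i w hw hw0
    obtain ⟨a, rfl⟩ := hdg i w hw
    have ha : a ≠ 0 := by
      rintro rfl
      exact hw0 (zero_smul _ _)
    refine ⟨⟨d i, hdm i, ?_⟩, ⟨d i, hdm i, ?_⟩⟩
    · rw [hermForm_smul_right]
      exact mul_ne_zero (pow_ne_zero _ ha) (hallS i)
    · rw [hermForm_smul_left]
      exact mul_ne_zero ha (hallS i)
  · intro i j hij u hu v hv
    obtain ⟨a, rfl⟩ := hdg i u hu
    obtain ⟨c, rfl⟩ := hdg j v hv
    rw [fsm]
    have : hermForm n F q (d i) (d j) = 0 := by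
      by_contra h
      exact hij (huniq i i j (hallS i) h)
    rw [this, mul_zero]

end Cfsg.Agent.Lib.Helper32.AschU
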