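import Cfsg.Agent.Lib.Helper32.AschU.SMA
import Cfsg.Agent.Lib.Helper32.AschU.SMB
import Cfsg.Agent.Lib.Helper32.AschU.URED
import Cfsg.Agent.Lib.Helper32.AschU.CL2S
import Cfsg.Agent.Lib.Helper32.AschU.ORTH
import Cfsg.Agent.Lib.Helper32.AschU.ADJ
import Cfsg.Agent.Lib.Helper32.AschU.EXU
import Cfsg.Agent.Lib.Helper32.AschU.FRO1
import Cfsg.Agent.Lib.Helper32.AschU.FRO2
import Cfsg.Agent.Lib.Helper32.AschU.FR2A
import Cfsg.Agent.Lib.Helper32.AschU.FR2B
import Cfsg.Agent.Lib.Helper32.AschU.DESC1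
import Cfsg.Agent.Lib.Helper32.AschU.DESC2
import Cfsg.Agent.Lib.Helper77.Asch.Main

set_option autoImplicit false

namespace Cfsg.Agent.Lib.Helper32.AschU

open Cfsg Cfsg.Geo Cfsg.Agent.Lib.Helper77.Asch
open scoped MatrixGroups Matrix

variable {n : ℕ} {F : Type*} [Field F]

/-- an absolutely irreducible subgroup of `GU`, normalised by `H`, realisable over a proper subfield. -/
theorem geo_of_realisable [Fintype F] (q : ℕ) (hF : Fintype.card F = q ^ 2) (hn : n.Prime) (h2 : n ≠ 2)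
    (H P₀ : Subgroup (GL (Fin n) F)) (hP : ActsAbsolutelyIrreducibly (matrixSet P₀)) (hPU : P₀ ≤ GU n F q)
    (hHP : H ≤ subgroupNormalizer P₀) (F₁ : Subfield F) (r : ℕ) (hr : r.Prime)
    (hc : Fintype.card F = Nat.card F₁ ^ r) (B : GL (Fin n) F)
    (hB : ∀ s ∈ matrixSet P₀, ∀ i j,
      ((B : Matrix (Fin n) (Fin n) F) * s * ((B⁻¹ : GL (Fin n) F) : Matrix (Fin n) (Fin n) F)) i j ∈ F₁) :
    InGeoU q H := by
  have hn0 : 0 < n := hn.pos
  have hodd : Odd n := hn.odd_of_ne_two h2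
  have h3 : 3 ≤ n := by
    have := hn.two_le
    omega
  have hsub : H ≤ subfieldSubgroup F₁ B⁻¹ := hHP.trans (normalizer_le_subfield hn0 P₀ hP F₁ B hB)
  rcases hr.eq_two_or_odd' with rfl | hro
  · obtain ⟨hsym, hrat⟩ := fr2a q hF hodd P₀ hP hPU F₁ hc B hB
    have hq : Odd q := by
      by_contra hq
      obtain ⟨f, hf⟩ := fr2b q hF hn.two_le P₀ hP hPU F₁ hc B hB hsym hq
      exact no_symplectic_odd hodd f hf
    exact Or.inr (Or.inr (Or.inr (Or.inr (Or.inr (Or.inl ⟨hq, F₁, B⁻¹, hc, hrat, hsub⟩)))))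
  · obtain ⟨d, hd, hdJ⟩ := fro1 q hF hn0 P₀ hP hPU F₁ B hB
    obtain ⟨P, hrat, hPeq⟩ := fro2 q hF hn0 F₁ r hro hc B⁻¹ d hd hdJ
    exact Or.inr (Or.inr (Or.inr (Or.inr (Or.inl ⟨F₁, r, P, hr, hro, hc, hrat, hPeq ▸ hsub⟩))))

theorem umain [Fintype F] (q : ℕ) (hF : Fintype.card F = q ^ 2) (hn : n.Prime) (h2 : n ≠ 2)
    (H : Subgroup (GL (Fin n) F)) (hH : H ≤ GU n F q) :
    InGeoU q H ∨ InUnitaryResidualClass H := by
  classical
  have hn0 : 0 < n := hn.pos
  have hodd : Odd n := hn.odd_of_ne_two h2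
  by_cases hirr : ActsIrreducibly (matrixSet H)
  swap
  · left
    obtain ⟨W₀, h0, h1, hW⟩ := red H hirr
    rcases ured q hF hodd H hH W₀ h0 h1 hW with h | h
    · exact Or.inl h
    · exact Or.inr (Or.inl h)
  set Z : Subgroup (GL (Fin n) F) := scalars (Fin n) F with hZ
  set Hh : Subgroup (GL (Fin n) F) := H ⊔ Z with hHh
  have hHle : H ≤ Hh := le_sup_left
  have hZle : Z ≤ Hh := le_sup_right
  have hHhirr : ActsIrreducibly (matrixSet Hh) := irr_mono hHle hirr
  have hHhs : Hh ≤ similarityGroup (hermForm n F q) :=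
    sup_le (hH.trans (GU_le_sim q)) (scalars_le_sim q)
  have hZc : ∀ z ∈ Z, ∀ g : GL (Fin n) F, g * z = z * g := scalars_central
  have hZlt : Z < Hh := by
    refine lt_of_le_of_ne hZle ?_
    intro he
    exact not_irr_of_le_scalars hn.two_le (H := H) (by rw [← hZ, he]; exact hHle) hirr
  obtain ⟨N, hm⟩ := exists_minOver Hh Z hZlt
  have hNs : N ≤ similarityGroup (hermForm n F q) := hm.le.trans hHhs
  rcases cliff_line hn Hh N hm.le hm.norm hHhirr with hNirr | ⟨v, hv, hev⟩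
  swap
  · rcases cliff_decomp_strong hn Hh N hm.le hm.norm hHhirr v hv hev with hNZ | ⟨D, χ, hD, hHD, hχ, hne⟩
    · exact absurd hNZ (not_le_of_gt hm.lt)
    · left
      exact Or.inr (Or.inr (Or.inl ⟨D, orth q hF hodd Hh N hHhs hm.le hHhirr D χ hD hHD hχ hne,
        hHle.trans hHD⟩))
  -- N irreducible
  have hK := comm_field hn0 (matrixSet N) hNirr
  have hdvd := deg_dvd hn0 _ _ hK
  rcases (Nat.dvd_prime hn).1 hdvd with h1 | hnn
  swap
  · left
    have hK' : IsFieldSubalgebra n (Subalgebra.centralizer F (matrixSet N)) :=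
      ⟨hK.comm, hK.inv, hnn⟩
    refine Or.inr (Or.inr (Or.inr (Or.inl ⟨Subalgebra.centralizer F (matrixSet N), hK', adj q hF N hNs, ?_⟩)))
    intro h hh
    exact normalizer_centralizer N h (normBy_iff hm.norm h (hHle hh))
  have hNabs : ActsAbsolutelyIrreducibly (matrixSet N) := absIrr_of_finrank_one _ hNirr h1
  by_cases hab : ⁅N, N⁆ ≤ Z
  · -- extraspecial case
    left
    obtain ⟨R, hRZ, hexp, hRnorm⟩ := exists_expSub hn h2 Hh N hm hab hNabs
    have hRabs : ActsAbsolutelyIrreducibly (matrixSet R) := absIrr_of_sup R (by rw [hRZ]; exact hNabs)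
    have hRN : R ≤ N := hRZ ▸ le_sup_left
    have hRab : ⁅R, R⁆ ≤ scalars (Fin n) F := (Subgroup.commutator_mono hRN hRN).trans hab
    obtain ⟨x, y, w, hheis⟩ := heis_of_exp hn R hexp hRab hRabs
    obtain ⟨hw1, hRU⟩ := exu q hF hn h2 R x y w hheis (hRN.trans hNs)
    have hHR : H ≤ subgroupNormalizer R := hHle.trans (normBy_le_normalizer hRnorm)
    by_cases hmin : ∀ F₀ : Subfield F, (w : F) ∈ F₀ → F₀ = ⊤
    · exact Or.inr (Or.inr (Or.inr (Or.inr (Or.inr (Or.inr ⟨R, x, y, w, hheis, hRabs, hRU, hmin, hw1, hHR⟩)))))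
    · push Not at hmin
      obtain ⟨F₀, hwF₀, hF₀⟩ := hmin
      obtain ⟨F₁, r, hle, hr, hc⟩ := exists_prime_subfield F₀ hF₀
      obtain ⟨B, hB⟩ := heis_realisable hn R x y w hheis F₁ (hle hwF₀)
      exact geo_of_realisable q hF hn h2 H R hRabs hRU hHR F₁ r hr hc B hB
  · -- quasisimple case
    obtain ⟨hperf, hPZ⟩ := perfect_core Hh Z N hZc hm hab
    set P : Subgroup (GL (Fin n) F) := ⁅N, N⁆ with hP
    have hPH : P ≤ H := (Subgroup.commutator_mono hm.le hm.le).trans (commutator_sup_le H Z hZc)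
    have hPU : P ≤ GU n F q := hPH.trans hH
    have hPabs : ActsAbsolutelyIrreducibly (matrixSet P) := absIrr_of_sup P (by rw [← hZ, hPZ]; exact hNabs)
    have hPnorm : NormBy Hh P := normBy_commutator hm.norm
    have hHP : H ≤ subgroupNormalizer P := hHle.trans (normBy_le_normalizer hPnorm)
    by_cases hsub : ∃ F₀ : Subfield F, F₀ ≠ ⊤ ∧ RealisableOver F₀ (matrixSet P)
    · left
      obtain ⟨F₀, hF₀, B, hB⟩ := hsub
      obtain ⟨F₁, r, hle, hr, hc⟩ := exists_prime_subfield F₀ hF₀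
      exact geo_of_realisable q hF hn h2 H P hPabs hPU hHP F₁ r hr hc B
        (fun s hs i j => hle (hB s hs i j))
    right
    have hL : ∀ M : Subgroup (GL (Fin n) F), M ≤ N → NormBy N M →
        Group.IsSolvable M ∨ ∀ a ∈ N, ∀ b ∈ N, (∀ y ∈ M, a * y = y * a) → (∀ y ∈ M, b * y = y * b) →
          a * b = b * a := by
      intro M hMN hMnorm
      rcases cliff_line hn N M hMN hMnorm hNirr with hMirr | ⟨v, hv, hev⟩
      · right
        intro a _ b _ ha hb
        have hKM := comm_field hn0 (matrixSet M) hMirr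
        have hmem : ∀ c : GL (Fin n) F, (∀ y ∈ M, c * y = y * c) →
            (c : Matrix (Fin n) (Fin n) F) ∈ Subalgebra.centralizer F (matrixSet M) := by
          intro c hc
          rw [Subalgebra.mem_centralizer_iff]
          rintro _ ⟨y, hy, rfl⟩
          have := hc y hy
          have h' := congrArg (fun g : GL (Fin n) F => (g : Matrix (Fin n) (Fin n) F)) this
          simpa using h'.symm
        have := hKM.comm _ (hmem a ha) _ (hmem b hb)
        exact Units.ext (by simpa using this)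
      · left
        rcases cliff_decomp hn N M hMN hMnorm hNirr v hv hev with hMZ | ⟨hcomm, _⟩
        · exact solvable_of_comm M (fun x hx y _ => (hZc x (hMZ hx) y).symm)
        · exact solvable_of_comm M hcomm
    have hsimp := simple_of_minOver Hh Z N hZc hm hab hL
    have hPnZ : ¬ ⁅P, P⁆ ≤ Z := by
      rw [hperf]
      exact hab
    refine ⟨P, ⟨hPH, fun h hh x hx => hPnorm h (hHle hh) x hx, hperf,
      simple_quot Z N P hPZ hm.lt hsimp, nonabelian_quot Z P hPnZ, ?_, hPabs, ?_⟩, ?_, ?_⟩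
    · intro h _ hcent
      have := centralizes_of_perfect Z P hZc hperf h hcent
      exact mem_scalars_of_commutes hn0 P hPabs h this
    · intro F₀ hF₀ hreal
      exact hsub ⟨F₀, hF₀, hreal⟩
    · rintro ⟨Q, hQ, hfix⟩
      obtain ⟨M, hM⟩ := desc1 q hF P hPU Q hQ hfix
      exact hsub (desc2 q hF hn0 P hPabs M hM)
    · rintro ⟨f, hf, _⟩
      exact no_symplectic_odd hodd f hf

end Cfsg.Agent.Lib.Helper32.AschU
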